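import Cfsg.Agent.Lib.Helper8.BN3
import Cfsg.Agent.Lib.Helper75.CoxR
import Cfsg.Agent.Lib.Helper69.BNR

/-!
# Piece P4 "Gate" of the Steinberg character project (helper25)

The gate property of the `J`-residues of a group with a `(B, N)`-pair: every coset `g P_J`
contains an element whose Bruhat cell has all of `J` as right ascents, and two such elements
of one coset differ by an element of `B`.
-/

set_option autoImplicit false

namespace Cfsg.Agent.Lib.Helper25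

open Cfsg Cfsg.Agent.Lib.Helper8

variable {G : Type*} [Group G]

theorem gate_exists (P : BNPair G) {J : Set G} (hJ : J ⊆ P.S) (g : G) :
    ∃ p ∈ P.parabolic J, JMin P J (g * p) := by
  obtain ⟨n, hnN, hgn⟩ := bruhat P g
  obtain ⟨b1, hb1, b2, hb2, hg⟩ := mem_dc.1 hgn
  obtain ⟨v, hv, hmin⟩ :=
    exists_rmin (SW_exchGen P) (SWJ_subset P J) (cl P (⟨n, hnN⟩ : P.N))
  obtain ⟨nv, hnv⟩ := QuotientGroup.mk_surjective (s := T P) v
  have hnv' : cl P nv = v := hnv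
  have hcl : cl P nv ∈ Subgroup.closure (SWJ P J) := by rw [hnv']; exact hv
  obtain ⟨m, hm, hmn⟩ := exists_rep_of_mem_closure P hcl
  have hmN : m ∈ P.N := closure_S_le_N P hJ hm
  have hclm : cl P (⟨m, hmN⟩ : P.N) = v := by
    rw [← hnv']
    exact cl_eq_iff.2 hmn
  refine ⟨b2⁻¹ * m, ?_, ?_⟩
  · exact (P.parabolic J).mul_mem (B_le_parabolic P J (P.B.inv_mem hb2))
      (closure_le_parabolic P J hm)
  · intro n' hn'
    have e1 : g * (b2⁻¹ * m) = b1 * (n * m) := by rw [hg]; group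
    have h1 : g * (b2⁻¹ * m) ∈ dc P (n * m) := by
      rw [e1]
      exact dc_mul_left_mem hb1 (mem_dc_self P (n * m))
    have h2 : dc P (n' : G) = dc P (((⟨n, hnN⟩ : P.N) * (⟨m, hmN⟩ : P.N) : P.N) : G) :=
      dc_eq_of_mem_of_mem hn' h1
    have h3 := cl_eq_of_dc_eq P h2
    rw [h3, cl_mul, hclm]
    exact hmin

theorem gate_unique (P : BNPair G) {J : Set G} (hJ : J ⊆ P.S) {g p : G}
    (hp : p ∈ P.parabolic J) (hg : JMin P J g) (hgp : JMin P J (g * p)) : p ∈ P.B := by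
  obtain ⟨n1, hn1N, hgn1⟩ := bruhat P g
  obtain ⟨nN, hnN⟩ : ∃ nN : P.N, (nN : G) = n1 := ⟨⟨n1, hn1N⟩, rfl⟩
  rw [← hnN] at hgn1
  have hmin1 : RMin (SW P) (SWJ P J) (cl P nN) := hg nN hgn1
  -- the cell of `g * p`
  obtain ⟨m, hm, hgpm⟩ := cell_mul_parabolic P hJ nN hgn1 hp
  have hclm : cl P m ∈ Subgroup.closure (SWJ P J) := cl_mem_closure_of_mem P hJ hm
  have hmin2 : RMin (SW P) (SWJ P J) (cl P nN * cl P m) := by
    rw [← cl_mul]
    exact hgp (nN * m) hgpm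
  have hm1 : cl P m = 1 := rmin_unique (SW_exchGen P) (SWJ_subset P J) hmin1 hclm hmin2
  have hmB : (m : G) ∈ P.B := cl_eq_one_iff.1 hm1
  have hgp1 : g * p ∈ dc P (nN : G) := by
    rw [dc_mul_right hmB] at hgpm
    exact hgpm
  obtain ⟨b1, hb1, b2, hb2, hg'⟩ := mem_dc.1 hgn1
  obtain ⟨b3, hb3, b4, hb4, hgp'⟩ := mem_dc.1 hgp1
  -- `q := n⁻¹ c n = b2 p b4⁻¹`
  have hq : (nN : G)⁻¹ * (b1⁻¹ * b3) * (nN : G) = b2 * p * b4⁻¹ := by
    have e : b1 * (nN : G) * b2 * p = b3 * (nN : G) * b4 := by rw [← hg', hgp']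
    have e2 : b2 * p = (nN : G)⁻¹ * b1⁻¹ * (b1 * (nN : G) * b2 * p) := by group
    rw [e2, e]
    group
  have hqpar : b2 * p * b4⁻¹ ∈ P.parabolic J :=
    (P.parabolic J).mul_mem ((P.parabolic J).mul_mem (B_le_parabolic P J hb2) hp)
      (B_le_parabolic P J (P.B.inv_mem hb4))
  obtain ⟨k, hk, hqk⟩ := (mem_parabolic_iff P hJ _).1 hqpar
  have hkN : k ∈ P.N := closure_S_le_N P hJ hk
  obtain ⟨kN, hkN'⟩ : ∃ kN : P.N, (kN : G) = k := ⟨⟨k, hkN⟩, rfl⟩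
  have hclk : cl P kN ∈ Subgroup.closure (SWJ P J) :=
    cl_mem_closure_of_mem P hJ (by rw [hkN']; exact hk)
  obtain ⟨b5, hb5, b6, hb6, hq'⟩ := mem_dc.1 hqk
  have hlen := rmin_len_mul (SW_exchGen P) (SWJ_subset P J) hmin1 hclk
  have h1 : (nN : G) * b5 * (kN : G) ∈ dc P ((nN : G) * (kN : G)) :=
    dc_mul_of_len_add P nN kN hlen hb5
  have hc : b1⁻¹ * b3 ∈ P.B := P.B.mul_mem (P.B.inv_mem hb1) hb3
  have e3 : (b1⁻¹ * b3) * (nN : G) = (nN : G) * b5 * (kN : G) * b6 := by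
    have : (b1⁻¹ * b3) * (nN : G) = (nN : G) * ((nN : G)⁻¹ * (b1⁻¹ * b3) * (nN : G)) := by group
    rw [this, hq, hq', hkN']
    group
  have h2 : (b1⁻¹ * b3) * (nN : G) ∈ dc P ((nN : G) * (kN : G)) := by
    rw [e3]
    exact dc_mul_right_mem hb6 h1
  have h3 : (b1⁻¹ * b3) * (nN : G) ∈ dc P (nN : G) := dc_mul_left_mem hc (mem_dc_self P _)
  have h4 : dc P (((nN * kN : P.N)) : G) = dc P (nN : G) := dc_eq_of_mem_of_mem h2 h3
  have h5 := cl_eq_of_dc_eq P h4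
  rw [cl_mul] at h5
  have hk1 : cl P kN = 1 := by
    have := congrArg (fun x => (cl P nN)⁻¹ * x) h5
    simpa using this
  have hkB : k ∈ P.B := by rw [← hkN']; exact cl_eq_one_iff.1 hk1
  have hqB : b2 * p * b4⁻¹ ∈ P.B := by
    rw [hq']
    exact P.B.mul_mem (P.B.mul_mem hb5 hkB) hb6
  have e4 : p = b2⁻¹ * (b2 * p * b4⁻¹) * b4 := by group
  rw [e4]
  exact P.B.mul_mem (P.B.mul_mem (P.B.inv_mem hb2) hqB) hb4

end Cfsg.Agent.Lib.Helper25
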