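import Mathlib
import Cfsg.Agent.Lib.Helper82.TGModDefs

/-!
# TG-MOD piece WEDFIN (helper90 for helper82): Burnside ⟹ the block is a full matrix algebra
-/

set_option autoImplicit false

namespace Cfsg.Agent.Lib.Helper90.TGM

open Cfsg Cfsg.Agent.Lib.Helper82.TGM

section Aux

variable {F : Type*} [Field F] {H : Type*} [Group H] [Fintype H]
  {W : Type*} [AddCommGroup W] [Module F W]

/-- `Θ c = ∑ h, c h • ρ h` -/
noncomputable def theta (ρ : H →* (W →ₗ[F] W)) : (H → F) →ₗ[F] (W →ₗ[F] W) where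
  toFun c := ∑ h : H, c h • ρ h
  map_add' a b := by
    simp only [Pi.add_apply, add_smul, Finset.sum_add_distrib]
  map_smul' r a := by
    simp only [Pi.smul_apply, smul_eq_mul, mul_smul, Finset.smul_sum, RingHom.id_apply]

theorem theta_apply (ρ : H →* (W →ₗ[F] W)) (c : H → F) :
    theta ρ c = ∑ h : H, c h • ρ h := rfl

theorem theta_conv (ρ : H →* (W →ₗ[F] W)) (a b : H → F) :
    theta ρ (convL a b) = theta ρ a * theta ρ b := by
  rw [theta_apply, theta_apply, theta_apply, Finset.sum_mul_sum]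
  simp_rw [convL_apply, Finset.sum_smul]
  rw [Finset.sum_comm]
  apply Finset.sum_congr rfl
  intro h _
  refine (Fintype.sum_equiv (Equiv.mulLeft h) _ _ (fun x => ?_)).symm
  rw [Equiv.coe_mulLeft, inv_mul_cancel_left, map_mul, smul_mul_smul_comm]

theorem convL_idem (E : H → F) (hEE : ∀ g : H, ∑ h : H, E h * E (h⁻¹ * g) = E g)
    (x : H → F) : convL E (convL E x) = convL E x := by
  funext g
  rw [convL_apply, convL_apply]
  simp_rw [convL_apply, Finset.mul_sum]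
  have h1 : ∀ h : H, ∑ k : H, E h * (E k * x (k⁻¹ * (h⁻¹ * g)))
      = ∑ m : H, E h * E (h⁻¹ * m) * x (m⁻¹ * g) := by
    intro h
    refine (Fintype.sum_equiv (Equiv.mulLeft h⁻¹) _ _ (fun m => ?_)).symm
    rw [Equiv.coe_mulLeft]
    have h2 : (h⁻¹ * m)⁻¹ * (h⁻¹ * g) = m⁻¹ * g := by group
    rw [h2, mul_assoc]
  rw [Finset.sum_congr rfl (fun h _ => h1 h), Finset.sum_comm]
  apply Finset.sum_congr rfl
  intro m _
  rw [← Finset.sum_mul, hEE]

theorem convL_translate (E : H → F) (hEcl : ∀ x h : H, E (x * h * x⁻¹) = E h) (y : H → F)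
    (hy : convL E y = y) (k : H) :
    convL E (fun g => y (k * g)) = fun g => y (k * g) := by
  funext g
  rw [convL_apply]
  have h1 : y (k * g) = ∑ h : H, E h * y (h⁻¹ * (k * g)) := by
    rw [← convL_apply, hy]
  show ∑ h : H, E h * y (k * (h⁻¹ * g)) = y (k * g)
  rw [h1]
  refine Fintype.sum_equiv (MulAut.conj k).toEquiv _ _ (fun h => ?_)
  show E h * y (k * (h⁻¹ * g)) = E (k * h * k⁻¹) * y ((k * h * k⁻¹)⁻¹ * (k * g))
  rw [hEcl]
  have h2 : (k * h * k⁻¹)⁻¹ * (k * g) = k * (h⁻¹ * g) := by group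
  rw [h2]

theorem theta_translate (ρ : H →* (W →ₗ[F] W)) (y : H → F) (k : H) :
    theta ρ (fun g => y (k * g)) = ρ k⁻¹ * theta ρ y := by
  rw [theta_apply, theta_apply, Finset.mul_sum]
  refine Fintype.sum_equiv (Equiv.mulLeft k) _ _ (fun g => ?_)
  show y (k * g) • ρ g = ρ k⁻¹ * (y (k * g) • ρ (k * g))
  rw [mul_smul_comm, ← map_mul, inv_mul_cancel_left]

theorem avg_class (y₁ : H → F) (z g : H) :
    ∑ x : H, y₁ (x * (z * g * z⁻¹) * x⁻¹) = ∑ x : H, y₁ (x * g * x⁻¹) := by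
  refine Fintype.sum_equiv (Equiv.mulRight z) _ _ (fun x => ?_)
  show y₁ (x * (z * g * z⁻¹) * x⁻¹) = y₁ (x * z * g * (x * z)⁻¹)
  congr 1
  group

theorem theta_avg (ρ : H →* (W →ₗ[F] W)) (y₁ : H → F) (h0 : theta ρ y₁ = 0) :
    theta ρ (fun g => ∑ x : H, y₁ (x * g * x⁻¹)) = 0 := by
  rw [theta_apply]
  simp_rw [Finset.sum_smul]
  rw [Finset.sum_comm]
  apply Finset.sum_eq_zero
  intro x _
  have h1 : ∑ g : H, y₁ (x * g * x⁻¹) • ρ g = ρ x⁻¹ * theta ρ y₁ * ρ x := by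
    rw [theta_apply, Finset.mul_sum, Finset.sum_mul]
    refine Fintype.sum_equiv (MulAut.conj x).toEquiv _ _ (fun g => ?_)
    show y₁ (x * g * x⁻¹) • ρ g = ρ x⁻¹ * (y₁ (x * g * x⁻¹) • ρ (x * g * x⁻¹)) * ρ x
    rw [mul_smul_comm, smul_mul_assoc, ← map_mul, ← map_mul]
    congr 2
    group
  rw [h1, h0, mul_zero, zero_mul]

theorem convL_avg (E : H → F) (hEcl : ∀ x h : H, E (x * h * x⁻¹) = E h) (y₁ : H → F)
    (hy₁ : convL E y₁ = y₁) :
    convL E (fun g => ∑ x : H, y₁ (x * g * x⁻¹)) = fun g => ∑ x : H, y₁ (x * g * x⁻¹) := by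
  funext g
  rw [convL_apply]
  show ∑ h : H, E h * ∑ x : H, y₁ (x * (h⁻¹ * g) * x⁻¹) = ∑ x : H, y₁ (x * g * x⁻¹)
  simp_rw [Finset.mul_sum]
  rw [Finset.sum_comm]
  apply Finset.sum_congr rfl
  intro x _
  have h1 : y₁ (x * g * x⁻¹) = ∑ h : H, E h * y₁ (h⁻¹ * (x * g * x⁻¹)) := by
    rw [← convL_apply, hy₁]
  rw [h1]
  refine Fintype.sum_equiv (MulAut.conj x).toEquiv _ _ (fun h => ?_)
  show E h * y₁ (x * (h⁻¹ * g) * x⁻¹)
    = E (x * h * x⁻¹) * y₁ ((x * h * x⁻¹)⁻¹ * (x * g * x⁻¹))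
  rw [hEcl]
  congr 2
  group

theorem conv_comm (E : H → F) (hEcl : ∀ x h : H, E (x * h * x⁻¹) = E h) (c : H → F) (g : H) :
    ∑ h : H, c h * E (h⁻¹ * g) = ∑ h : H, E h * c (h⁻¹ * g) := by
  refine Fintype.sum_equiv ((Equiv.inv H).trans (Equiv.mulLeft g)) _ _ (fun h => ?_)
  show c h * E (h⁻¹ * g) = E (g * h⁻¹) * c ((g * h⁻¹)⁻¹ * g)
  have h1 : (g * h⁻¹)⁻¹ * g = h := by group
  have h2 : E (g * h⁻¹) = E (h⁻¹ * g) := by
    have h3 := hEcl g (h⁻¹ * g)
    rw [← h3]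
    congr 1
    group
  rw [h1, h2, mul_comm]

theorem inj_core [Nontrivial W] (hH : (Nat.card H : F) ≠ 0) (ρ : H →* (W →ₗ[F] W)) (E : H → F)
    (hEcl : ∀ x h : H, E (x * h * x⁻¹) = E h)
    (hEc : ∀ c : H → F, (∀ x h : H, c (x * h * x⁻¹) = c h) →
      ∃ l : F, ∀ g : H, ∑ h : H, c h * E (h⁻¹ * g) = l * E g)
    (hE1 : ∑ h : H, E h • ρ h = 1)
    (y : H → F) (hy : convL E y = y) (hΘ : theta ρ y = 0) : y = 0 := by
  by_contra hne
  obtain ⟨k, hk⟩ : ∃ k, y k ≠ 0 := by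
    by_contra hcon
    push Not at hcon
    exact hne (funext hcon)
  obtain ⟨y₁, hy₁⟩ : ∃ y₁ : H → F, y₁ = fun g => y (k * g) := ⟨_, rfl⟩
  obtain ⟨y₂, hy₂⟩ : ∃ y₂ : H → F, y₂ = fun g => ∑ x : H, y₁ (x * g * x⁻¹) := ⟨_, rfl⟩
  have h1a : convL E y₁ = y₁ := by
    rw [hy₁]; exact convL_translate E hEcl y hy k
  have h1b : theta ρ y₁ = 0 := by
    rw [hy₁, theta_translate, hΘ, mul_zero]
  have h2a : ∀ z g : H, y₂ (z * g * z⁻¹) = y₂ g := by
    intro z g
    rw [hy₂]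
    exact avg_class y₁ z g
  have h2b : theta ρ y₂ = 0 := by
    rw [hy₂]; exact theta_avg ρ y₁ h1b
  have h2c : convL E y₂ = y₂ := by
    rw [hy₂]; exact convL_avg E hEcl y₁ h1a
  obtain ⟨l, hl⟩ := hEc y₂ h2a
  have h3 : ∀ g : H, y₂ g = l * E g := by
    intro g
    rw [← hl g, conv_comm E hEcl, ← convL_apply, h2c]
  have h4 : l = 0 := by
    have h5 : theta ρ y₂ = l • 1 := by
      rw [theta_apply, ← hE1, Finset.smul_sum]
      apply Finset.sum_congr rfl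
      intro g _
      rw [h3 g, mul_smul]
    rw [h2b] at h5
    obtain ⟨w, hw⟩ := exists_ne (0 : W)
    have h6 := LinearMap.congr_fun h5 w
    rw [LinearMap.zero_apply, LinearMap.smul_apply, Module.End.one_apply] at h6
    rcases smul_eq_zero.mp h6.symm with h7 | h7
    · exact h7
    · exact absurd h7 hw
  have h8 := h3 1
  rw [h4, zero_mul] at h8
  have h9 : y₂ 1 = (Nat.card H : F) * y k := by
    rw [hy₂, hy₁]
    show ∑ x : H, y (k * (x * 1 * x⁻¹)) = (Nat.card H : F) * y k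
    simp [Nat.card_eq_fintype_card]
  rw [h9] at h8
  exact (mul_ne_zero hH hk) h8

end Aux

/-- PIECE WEDFIN (pure Mathlib + convL): Burnside ⟹ the block is a full matrix algebra. -/
theorem wed_fin {F : Type*} [Field F] {H : Type*} [Group H] [Fintype H]
    (hH : (Nat.card H : F) ≠ 0)
    {W : Type*} [AddCommGroup W] [Module F W] [Module.Finite F W] [Nontrivial W]
    (ρ : H →* (W →ₗ[F] W))
    (hB : ∀ f : W →ₗ[F] W, ∃ c : H → F, f = ∑ h : H, c h • ρ h)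
    (E : H → F)
    (hEcl : ∀ x h : H, E (x * h * x⁻¹) = E h)
    (hEE : ∀ g : H, ∑ h : H, E h * E (h⁻¹ * g) = E g)
    (hEc : ∀ c : H → F, (∀ x h : H, c (x * h * x⁻¹) = c h) →
      ∃ l : F, ∀ g : H, ∑ h : H, c h * E (h⁻¹ * g) = l * E g)
    (hE1 : ∑ h : H, E h • ρ h = 1) :
    Module.finrank F (LinearMap.range (convL E)) = Module.finrank F W ^ 2 := by
  classical
  have hinj : Function.Injective ((theta ρ).comp (LinearMap.range (convL E)).subtype) := by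
    rw [injective_iff_map_eq_zero]
    rintro ⟨y, hy⟩ hT
    obtain ⟨x, rfl⟩ := hy
    have h1 : convL E x = 0 :=
      inj_core hH ρ E hEcl hEc hE1 (convL E x) (convL_idem E hEE x) hT
    exact Subtype.ext h1
  have hsurj : Function.Surjective ((theta ρ).comp (LinearMap.range (convL E)).subtype) := by
    intro f
    obtain ⟨c, hc⟩ := hB f
    refine ⟨⟨convL E c, LinearMap.mem_range_self _ c⟩, ?_⟩
    show theta ρ (convL E c) = f
    rw [theta_conv, theta_apply, theta_apply, hE1, one_mul, hc]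
  have h1 := LinearEquiv.finrank_eq (LinearEquiv.ofBijective _ ⟨hinj, hsurj⟩)
  rw [h1, Module.finrank_linearMap, sq]

end Cfsg.Agent.Lib.Helper90.TGM
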