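import Cfsg.Agent.Lib.Helper24.FoldDefs
import Cfsg.Agent.Lib.Helper90.FoldPEGGen

set_option autoImplicit false

/-! S2734 piece PEG: an element of `D₄(F)` fixing the image of the folding matrix is trivial. -/

namespace Cfsg.Agent.Lib.Helper24.Fold

open Cfsg.Lie Matrix Cfsg.Agent.Lib.Helper24
open Cfsg.Agent.Lib.Helper25 (sgn pk8 gPiD4a gEpsD4a wPi wEta wEta_cases negSet uMinus)

variable {F : Type*} [Field F]

/-- the combinations of the two Cartan columns used for `D₄`: `h₁`, `h₀ + h₂ + h₃`, their sum -/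
def peg_d4cs : List (List (ℕ × ℤ)) := [[(0, 1)], [(1, 1)], [(0, 1), (1, 1)]]

set_option maxRecDepth 1000000 in
theorem peg_d4_1 : ∀ i < chevD4.rank, chevD4.simple i < chevD4.nroots := by decide +kernel

set_option maxRecDepth 1000000 in
theorem peg_d4_2 : ∀ r < chevD4.nroots, ∃ κ < chevG2.rank + chevG2.nroots,
    (bEnt d4Cols (chevD4.rank + r) κ = 1 ∨ bEnt d4Cols (chevD4.rank + r) κ = -1) ∧
    ∀ a < chevD4.rank + chevD4.nroots, bEnt d4Cols a κ ≠ 0 →
      pegg_levC chevD4 lvD4 8 a = lvD4 r := by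
  decide +kernel

set_option maxRecDepth 1000000 in
theorem peg_d4_3 : ∀ r < chevD4.nroots, chevD4.IsPosRoot r → ∃ combo ∈ peg_d4cs,
    ((∑ i ∈ Finset.range chevD4.rank, pegg_cc d4Cols combo i * chevD4.cartan i r) = 1 ∨
      (∑ i ∈ Finset.range chevD4.rank, pegg_cc d4Cols combo i * chevD4.cartan i r) = -1) := by
  decide +kernel

set_option maxRecDepth 1000000 in
theorem peg_d4_4 : ∀ combo ∈ peg_d4cs, ∀ p ∈ combo, p.1 < chevG2.rank + chevG2.nroots ∧
    ∀ a < chevD4.rank + chevD4.nroots, chevD4.rank ≤ a → bEnt d4Cols a p.1 = 0 := by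
  decide +kernel

/-- PEG: an element of `D₄(F)` fixing the image of the folding matrix is trivial. -/
theorem d4_fold_ker (x : GL chevD4.Idx F) (hx : x ∈ chevD4.group F)
    (h : (x : Matrix chevD4.Idx chevD4.Idx F) * d4Fold F = d4Fold F) : x = 1 :=
  fold_ker_gen chevD4 chevG2 (by simp) lvD4 8 levD4 iaD4 posD4 d4Cols (by decide) peg_d4cs
    peg_d4_1 peg_d4_2 peg_d4_3 peg_d4_4 x hx h

end Cfsg.Agent.Lib.Helper24.Fold
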