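import Mathlib
import Cfsg.Agent.Lib.Helper68.J3MABEL3
import Cfsg.Agent.Lib.Helper29.J3MCORE3

/-!
# Piece J3M-MAIN3 (helper37, S2041): the 3-part of the kernel of a central extension

From relations of `x`, `y`, `c` in `G` to the statement about any central extension `σ`.
-/

set_option autoImplicit false
open scoped commutatorElement
universe u v

namespace Cfsg.Agent.Lib.Helper90.J3MMAIN3

/-- elements of the closure of a pairwise commuting set commute -/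
theorem comm_of_closure {H : Type*} [Group H] (S : Set H)
    (h : ∀ s ∈ S, ∀ s' ∈ S, s * s' = s' * s) :
    ∀ u ∈ Subgroup.closure S, ∀ v ∈ Subgroup.closure S, u * v = v * u := by
  have h1 : ∀ s ∈ S, ∀ v ∈ Subgroup.closure S, s * v = v * s := by
    intro s hs v hv
    induction hv using Subgroup.closure_induction with
    | mem w hw => exact h s hs w hw
    | one => simp
    | mul w w' _ _ ih ih' => rw [← mul_assoc, ih, mul_assoc, ih', mul_assoc]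
    | inv w _ ih =>
      have : w⁻¹ * (s * w) * w⁻¹ = w⁻¹ * (w * s) * w⁻¹ := by rw [ih]
      calc s * w⁻¹ = w⁻¹ * (w * s) * w⁻¹ := by group
        _ = w⁻¹ * (s * w) * w⁻¹ := by rw [ih]
        _ = w⁻¹ * s := by group
  intro u hu v hv
  induction hu using Subgroup.closure_induction with
  | mem w hw => exact h1 w hw v hv
  | one => simp
  | mul w w' _ _ ih ih' => rw [mul_assoc, ih', ← mul_assoc, ih, mul_assoc]
  | inv w _ ih =>
    calc w⁻¹ * v = w⁻¹ * (v * w) * w⁻¹ := by group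
      _ = w⁻¹ * (w * v) * w⁻¹ := by rw [ih]
      _ = v * w⁻¹ := by group

/-- a conjugation mapping the generators into the closure maps the closure into itself -/
theorem conj_closure {H : Type*} [Group H] (S : Set H) (g : H)
    (h : ∀ s ∈ S, g * s * g⁻¹ ∈ Subgroup.closure S) :
    ∀ d ∈ Subgroup.closure S, g * d * g⁻¹ ∈ Subgroup.closure S := by
  intro d hd
  induction hd using Subgroup.closure_induction with
  | mem w hw => exact h w hw
  | one => simp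
  | mul w w' _ _ ih ih' =>
    have : g * (w * w') * g⁻¹ = (g * w * g⁻¹) * (g * w' * g⁻¹) := by group
    rw [this]; exact Subgroup.mul_mem _ ih ih'
  | inv w _ ih =>
    have : g * w⁻¹ * g⁻¹ = (g * w * g⁻¹)⁻¹ := by group
    rw [this]; exact Subgroup.inv_mem _ ih

/-- reduction of an integer exponent modulo 3 -/
theorem zpow_eq_pow_mod3 {H : Type*} [Group H] {g : H} (hg : g ^ 3 = 1) (n : ℤ) :
    g ^ n = g ^ (n % 3).toNat := by
  have h1 : n = 3 * (n / 3) + n % 3 := (Int.mul_ediv_add_emod n 3).symm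
  have h2 : 0 ≤ n % 3 := Int.emod_nonneg n (by norm_num)
  have h3 : ((n % 3).toNat : ℤ) = n % 3 := Int.toNat_of_nonneg h2
  have h4 : g ^ (3 : ℤ) = 1 := by
    have : g ^ ((3 : ℕ) : ℤ) = 1 := by rw [zpow_natCast]; exact hg
    simpa using this
  calc g ^ n = g ^ (3 * (n / 3) + n % 3) := by rw [← h1]
    _ = g ^ (n % 3) := by rw [zpow_add, zpow_mul, h4, one_zpow, one_mul]
    _ = g ^ (((n % 3).toNat : ℕ) : ℤ) := by rw [h3]
    _ = g ^ (n % 3).toNat := zpow_natCast _ _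

theorem three_part {Γ : Type u} {G : Type v} [Group Γ] [Group G] (σ : Γ →* G)
    (hσ : Function.Surjective σ) (hc : σ.ker ≤ Subgroup.center Γ)
    (x y c a t₁ t₂ : G) (ha : a = ⁅x, y⁆) (ht1 : t₁ = ⁅x, a⁆) (ht2 : t₂ = ⁅y, a⁆)
    (h1 : x * t₁ = t₁ * x) (h2 : y * t₁ = t₁ * y) (h3 : x * t₂ = t₂ * x) (h4 : y * t₂ = t₂ * y)
    (hx3 : ∃ i j k : ℕ, x ^ 3 = a ^ i * t₁ ^ j * t₂ ^ k)
    (hy3 : ∃ i j k : ℕ, y ^ 3 = a ^ i * t₁ ^ j * t₂ ^ k)
    (ha3 : a ^ 3 = 1) (ht13 : t₁ ^ 3 = 1) (ht23 : t₂ ^ 3 = 1)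
    (hind : ∀ i j k : ℕ, i < 3 → j < 3 → k < 3 → a ^ i * t₁ ^ j * t₂ ^ k = 1 →
      i = 0 ∧ j = 0 ∧ k = 0)
    (hcx : ∃ i j k : ℕ, c * x * c⁻¹ = x * y ^ 2 * (a ^ i * t₁ ^ j * t₂ ^ k))
    (hcy : ∃ i j k : ℕ, c * y * c⁻¹ = x * y * (a ^ i * t₁ ^ j * t₂ ^ k))
    (hca : ∃ i j : ℕ, c * a * c⁻¹ = a⁻¹ * (t₁ ^ i * t₂ ^ j))
    (hct1 : c * t₁ * c⁻¹ = t₁ ^ 2 * t₂) (hct2 : c * t₂ * c⁻¹ = t₁ ^ 2 * t₂ ^ 2) :
    ∃ κ : Γ, κ ^ 3 = 1 ∧
      ∀ g ∈ ⁅(Subgroup.closure ({x, y} : Set G)).comap σ, (Subgroup.closure ({x, y} : Set G)).comap σ⁆,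
        g ∈ σ.ker → (∃ n : ℕ, g ^ (3 ^ n) = 1) → g ∈ Subgroup.zpowers κ := by
  obtain ⟨X, hX⟩ := hσ x
  obtain ⟨Y, hY⟩ := hσ y
  obtain ⟨C, hC⟩ := hσ c
  -- commutation facts in `G`
  have hxi1 : x⁻¹ * t₁ = t₁ * x⁻¹ := by
    calc x⁻¹ * t₁ = x⁻¹ * (t₁ * x) * x⁻¹ := by group
      _ = x⁻¹ * (x * t₁) * x⁻¹ := by rw [h1]
      _ = t₁ * x⁻¹ := by group
  have hyi1 : y⁻¹ * t₁ = t₁ * y⁻¹ := by
    calc y⁻¹ * t₁ = y⁻¹ * (t₁ * y) * y⁻¹ := by group
      _ = y⁻¹ * (y * t₁) * y⁻¹ := by rw [h2]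
      _ = t₁ * y⁻¹ := by group
  have hxi2 : x⁻¹ * t₂ = t₂ * x⁻¹ := by
    calc x⁻¹ * t₂ = x⁻¹ * (t₂ * x) * x⁻¹ := by group
      _ = x⁻¹ * (x * t₂) * x⁻¹ := by rw [h3]
      _ = t₂ * x⁻¹ := by group
  have hyi2 : y⁻¹ * t₂ = t₂ * y⁻¹ := by
    calc y⁻¹ * t₂ = y⁻¹ * (t₂ * y) * y⁻¹ := by group
      _ = y⁻¹ * (y * t₂) * y⁻¹ := by rw [h4]
      _ = t₂ * y⁻¹ := by group
  have hadef : a = x * y * x⁻¹ * y⁻¹ := by rw [ha, commutatorElement_def]
  have ha1 : a * t₁ = t₁ * a := by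
    rw [hadef]
    calc x * y * x⁻¹ * y⁻¹ * t₁ = x * y * x⁻¹ * (y⁻¹ * t₁) := by group
      _ = x * y * (x⁻¹ * t₁) * y⁻¹ := by rw [hyi1]; group
      _ = x * (y * t₁) * x⁻¹ * y⁻¹ := by rw [hxi1]; group
      _ = (x * t₁) * y * x⁻¹ * y⁻¹ := by rw [h2]; group
      _ = t₁ * (x * y * x⁻¹ * y⁻¹) := by rw [h1]; group
  have ha2 : a * t₂ = t₂ * a := by
    rw [hadef]
    calc x * y * x⁻¹ * y⁻¹ * t₂ = x * y * x⁻¹ * (y⁻¹ * t₂) := by group
      _ = x * y * (x⁻¹ * t₂) * y⁻¹ := by rw [hyi2]; group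
      _ = x * (y * t₂) * x⁻¹ * y⁻¹ := by rw [hxi2]; group
      _ = (x * t₂) * y * x⁻¹ * y⁻¹ := by rw [h4]; group
      _ = t₂ * (x * y * x⁻¹ * y⁻¹) := by rw [h3]; group
  have hai1 : a⁻¹ * t₁ = t₁ * a⁻¹ := by
    calc a⁻¹ * t₁ = a⁻¹ * (t₁ * a) * a⁻¹ := by group
      _ = a⁻¹ * (a * t₁) * a⁻¹ := by rw [ha1]
      _ = t₁ * a⁻¹ := by group
  have ht2def : t₂ = y * a * y⁻¹ * a⁻¹ := by rw [ht2, commutatorElement_def]
  have ht1def : t₁ = x * a * x⁻¹ * a⁻¹ := by rw [ht1, commutatorElement_def]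
  have h12 : t₁ * t₂ = t₂ * t₁ := by
    have e : y * a * y⁻¹ * a⁻¹ * t₁ = t₁ * (y * a * y⁻¹ * a⁻¹) := by
      calc y * a * y⁻¹ * a⁻¹ * t₁ = y * a * y⁻¹ * (a⁻¹ * t₁) := by group
        _ = y * a * (y⁻¹ * t₁) * a⁻¹ := by rw [hai1]; group
        _ = y * (a * t₁) * y⁻¹ * a⁻¹ := by rw [hyi1]; group
        _ = (y * t₁) * a * y⁻¹ * a⁻¹ := by rw [ha1]; group
        _ = t₁ * (y * a * y⁻¹ * a⁻¹) := by rw [h2]; group
    rw [ht2def]
    exact e.symm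
  -- the subgroup `D`
  obtain ⟨D, hDdef⟩ : ∃ D : Subgroup G, D = Subgroup.closure ({a, t₁, t₂} : Set G) := ⟨_, rfl⟩
  have haD : a ∈ D := by rw [hDdef]; exact Subgroup.subset_closure (by simp)
  have ht1D : t₁ ∈ D := by rw [hDdef]; exact Subgroup.subset_closure (by simp)
  have ht2D : t₂ ∈ D := by rw [hDdef]; exact Subgroup.subset_closure (by simp)
  have hDcomm : ∀ u ∈ D, ∀ v ∈ D, u * v = v * u := by
    rw [hDdef]
    apply comm_of_closure
    intro s hs s' hs'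
    simp only [Set.mem_insert_iff, Set.mem_singleton_iff] at hs hs'
    rcases hs with rfl | rfl | rfl <;> rcases hs' with rfl | rfl | rfl <;>
      first | rfl | exact ha1 | exact ha2 | exact h12 | exact ha1.symm | exact ha2.symm | exact h12.symm
  have hpowD : ∀ i j k : ℕ, a ^ i * t₁ ^ j * t₂ ^ k ∈ D := fun i j k =>
    D.mul_mem (D.mul_mem (D.pow_mem haD i) (D.pow_mem ht1D j)) (D.pow_mem ht2D k)
  have hxD : ∀ d ∈ D, x * d * x⁻¹ ∈ D := by
    rw [hDdef]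
    apply conj_closure
    intro s hs
    rw [← hDdef]
    simp only [Set.mem_insert_iff, Set.mem_singleton_iff] at hs
    rcases hs with rfl | rfl | rfl
    · have : x * s * x⁻¹ = t₁ * s := by rw [ht1def]; group
      rw [this]; exact D.mul_mem ht1D haD
    · have : x * s * x⁻¹ = s := by rw [h1]; group
      rw [this]; exact ht1D
    · have : x * s * x⁻¹ = s := by rw [h3]; group
      rw [this]; exact ht2D
  have hyD : ∀ d ∈ D, y * d * y⁻¹ ∈ D := by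
    rw [hDdef]
    apply conj_closure
    intro s hs
    rw [← hDdef]
    simp only [Set.mem_insert_iff, Set.mem_singleton_iff] at hs
    rcases hs with rfl | rfl | rfl
    · have : y * s * y⁻¹ = t₂ * s := by rw [ht2def]; group
      rw [this]; exact D.mul_mem ht2D haD
    · have : y * s * y⁻¹ = s := by rw [h2]; group
      rw [this]; exact ht1D
    · have : y * s * y⁻¹ = s := by rw [h4]; group
      rw [this]; exact ht2D
  have hcD : ∀ d ∈ D, c * d * c⁻¹ ∈ D := by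
    rw [hDdef]
    apply conj_closure
    intro s hs
    rw [← hDdef]
    simp only [Set.mem_insert_iff, Set.mem_singleton_iff] at hs
    rcases hs with rfl | rfl | rfl
    · obtain ⟨i, j, hij⟩ := hca
      rw [hij]
      exact D.mul_mem (D.inv_mem haD) (D.mul_mem (D.pow_mem ht1D i) (D.pow_mem ht2D j))
    · rw [hct1]; exact D.mul_mem (D.pow_mem ht1D 2) ht2D
    · rw [hct2]; exact D.mul_mem (D.pow_mem ht1D 2) (D.pow_mem ht2D 2)
  -- `D ≤ P`
  obtain ⟨P, hPdef⟩ : ∃ P : Subgroup G, P = Subgroup.closure ({x, y} : Set G) := ⟨_, rfl⟩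
  have hxP : x ∈ P := by rw [hPdef]; exact Subgroup.subset_closure (by simp)
  have hyP : y ∈ P := by rw [hPdef]; exact Subgroup.subset_closure (by simp)
  have haP : a ∈ P := by
    rw [hadef]; exact P.mul_mem (P.mul_mem (P.mul_mem hxP hyP) (P.inv_mem hxP)) (P.inv_mem hyP)
  have ht1P : t₁ ∈ P := by
    rw [ht1def]; exact P.mul_mem (P.mul_mem (P.mul_mem hxP haP) (P.inv_mem hxP)) (P.inv_mem haP)
  have ht2P : t₂ ∈ P := by
    rw [ht2def]; exact P.mul_mem (P.mul_mem (P.mul_mem hyP haP) (P.inv_mem hyP)) (P.inv_mem haP)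
  have hDP : D ≤ P := by
    rw [hDdef, Subgroup.closure_le]
    intro s hs
    simp only [Set.mem_insert_iff, Set.mem_singleton_iff] at hs
    rcases hs with rfl | rfl | rfl
    · exact haP
    · exact ht1P
    · exact ht2P
  -- lifts
  obtain ⟨Â, hÂdef⟩ : ∃ Â : Γ, Â = ⁅X, Y⁆ := ⟨_, rfl⟩
  have hσÂ : σ Â = a := by rw [hÂdef, map_commutatorElement, hX, hY, ha]
  have hσT1 : σ ⁅X, Â⁆ = t₁ := by rw [map_commutatorElement, hX, hσÂ, ht1]
  have hσT2 : σ ⁅Y, Â⁆ = t₂ := by rw [map_commutatorElement, hY, hσÂ, ht2]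
  obtain ⟨hl1, hl2, hl3⟩ := Cfsg.Agent.Lib.Helper68.J3MABEL3.lifts_commute σ hc a t₁ t₂ c h12 ha1 ha2
    ht13 ht23 hca hct1 hct2 Â ⁅X, Â⁆ ⁅Y, Â⁆ hσÂ hσT1 hσT2 ⟨C, hC⟩
  -- the closure of the lifts
  obtain ⟨B0, hB0def⟩ : ∃ B0 : Subgroup Γ,
      B0 = Subgroup.closure ({Â, ⁅X, Â⁆, ⁅Y, Â⁆} : Set Γ) := ⟨_, rfl⟩
  have hB0comm : ∀ u ∈ B0, ∀ v ∈ B0, u * v = v * u := by
    rw [hB0def]
    apply comm_of_closure
    intro s hs s' hs'
    simp only [Set.mem_insert_iff, Set.mem_singleton_iff] at hs hs'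
    rcases hs with rfl | rfl | rfl <;> rcases hs' with rfl | rfl | rfl <;>
      first | rfl | exact hl1 | exact hl2 | exact hl3 | exact hl1.symm | exact hl2.symm | exact hl3.symm
  have hB0map : B0.map σ = D := by
    rw [hB0def, hDdef, MonoidHom.map_closure]
    congr 1
    ext g
    simp only [Set.mem_image, Set.mem_insert_iff, Set.mem_singleton_iff]
    constructor
    · rintro ⟨w, hw | hw | hw, rfl⟩
      · left; rw [hw, hσÂ]
      · right; left; rw [hw, hσT1]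
      · right; right; rw [hw, hσT2]
    · rintro (rfl | rfl | rfl)
      · exact ⟨Â, Or.inl rfl, hσÂ⟩
      · exact ⟨⁅X, Â⁆, Or.inr (Or.inl rfl), hσT1⟩
      · exact ⟨⁅Y, Â⁆, Or.inr (Or.inr rfl), hσT2⟩
  obtain ⟨B, hBdef⟩ : ∃ B : Subgroup Γ, B = D.comap σ := ⟨_, rfl⟩
  have hmemB : ∀ g : Γ, g ∈ B ↔ σ g ∈ D := by
    intro g; rw [hBdef, Subgroup.mem_comap]
  have hdecomp : ∀ b ∈ B, ∃ b0 ∈ B0, ∃ k ∈ σ.ker, b = b0 * k := by
    intro b hb
    have h5 : σ b ∈ B0.map σ := by rw [hB0map]; exact (hmemB b).1 hb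
    obtain ⟨b0, hb0, hb0b⟩ := Subgroup.mem_map.1 h5
    refine ⟨b0, hb0, b0⁻¹ * b, ?_, by group⟩
    rw [MonoidHom.mem_ker, map_mul, map_inv, hb0b, inv_mul_cancel]
  have hcen : ∀ k ∈ σ.ker, ∀ g : Γ, g * k = k * g := fun k hk g =>
    Subgroup.mem_center_iff.1 (hc hk) g
  have hBcomm : ∀ b ∈ B, ∀ b' ∈ B, b * b' = b' * b := by
    intro b hb b' hb'
    obtain ⟨b0, hb0, k, hk, rfl⟩ := hdecomp b hb
    obtain ⟨b0', hb0', k', hk', rfl⟩ := hdecomp b' hb'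
    calc b0 * k * (b0' * k') = b0 * (k * b0') * k' := by group
      _ = b0 * (b0' * k) * k' := by rw [hcen k hk b0']
      _ = (b0 * b0') * (k * k') := by group
      _ = (b0' * b0) * (k' * k) := by rw [hB0comm b0 hb0 b0' hb0', hcen k hk k']
      _ = b0' * (b0 * k') * k := by group
      _ = b0' * (k' * b0) * k := by rw [hcen k' hk' b0]
      _ = b0' * k' * (b0 * k) := by group
  -- `P.comap σ ≤ closure {X, Y} ⊔ ker`
  have hPmap : (Subgroup.closure ({X, Y} : Set Γ)).map σ = P := by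
    rw [hPdef, MonoidHom.map_closure]
    congr 1
    ext g
    simp only [Set.mem_image, Set.mem_insert_iff, Set.mem_singleton_iff]
    constructor
    · rintro ⟨w, hw | hw, rfl⟩
      · left; rw [hw, hX]
      · right; rw [hw, hY]
    · rintro (rfl | rfl)
      · exact ⟨X, Or.inl rfl, hX⟩
      · exact ⟨Y, Or.inr rfl, hY⟩
  have hPcomap : ∀ g : Γ, σ g ∈ P → g ∈ Subgroup.closure ({X, Y} : Set Γ) ⊔ σ.ker := by
    intro g hg
    rw [← hPmap] at hg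
    obtain ⟨p, hp, hpg⟩ := Subgroup.mem_map.1 hg
    have hk : p⁻¹ * g ∈ σ.ker := by
      rw [MonoidHom.mem_ker, map_mul, map_inv, hpg, inv_mul_cancel]
    have : g = p * (p⁻¹ * g) := by group
    rw [this]
    exact Subgroup.mul_mem_sup hp hk
  -- apply the core
  have hkerB : σ.ker ≤ B := by
    intro k hk
    rw [hmemB, MonoidHom.mem_ker.1 hk]
    exact D.one_mem
  have hcomm1 : ∀ u v : G, u * v = v * u → ⁅u, v⁆ = 1 := by
    intro u v huv
    rw [commutatorElement_def, huv]; group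
  have key := Cfsg.Agent.Lib.Helper29.J3MCORE3.three_core σ.ker B hc hkerB hBcomm X Y C Â hÂdef
    ((hmemB Â).2 (by rw [hσÂ]; exact haD))
    (fun b hb => hPcomap b (hDP ((hmemB b).1 hb)))
    (fun b hb => (hmemB _).2 (by
      rw [map_mul, map_mul, map_inv, hX]; exact hxD _ ((hmemB b).1 hb)))
    (fun b hb => (hmemB _).2 (by
      rw [map_mul, map_mul, map_inv, hY]; exact hyD _ ((hmemB b).1 hb)))
    (fun b hb => (hmemB _).2 (by
      rw [map_mul, map_mul, map_inv, hC]; exact hcD _ ((hmemB b).1 hb)))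
    ((hmemB _).2 (by
      obtain ⟨i, j, k, h⟩ := hx3
      rw [map_pow, hX, h]; exact hpowD i j k))
    ((hmemB _).2 (by
      obtain ⟨i, j, k, h⟩ := hy3
      rw [map_pow, hY, h]; exact hpowD i j k))
    (by
      obtain ⟨i, j, k, h⟩ := hcx
      refine ⟨(X * Y ^ 2)⁻¹ * (C * X * C⁻¹), (hmemB _).2 ?_, by group⟩
      rw [map_mul, map_inv, map_mul, map_pow, map_mul, map_mul, map_inv, hX, hY, hC, h]
      have : (x * y ^ 2)⁻¹ * (x * y ^ 2 * (a ^ i * t₁ ^ j * t₂ ^ k)) = a ^ i * t₁ ^ j * t₂ ^ k := by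
        group
      rw [this]; exact hpowD i j k)
    (by
      obtain ⟨i, j, k, h⟩ := hcy
      refine ⟨(X * Y)⁻¹ * (C * Y * C⁻¹), (hmemB _).2 ?_, by group⟩
      rw [map_mul, map_inv, map_mul, map_mul, map_mul, map_inv, hX, hY, hC, h]
      have : (x * y)⁻¹ * (x * y * (a ^ i * t₁ ^ j * t₂ ^ k)) = a ^ i * t₁ ^ j * t₂ ^ k := by
        group
      rw [this]; exact hpowD i j k)
    (by
      rw [MonoidHom.mem_ker, map_commutatorElement, hσT1, hX]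
      exact hcomm1 x t₁ h1)
    (by
      rw [MonoidHom.mem_ker, map_commutatorElement, hσT2, hX]
      exact hcomm1 x t₂ h3)
    (by
      rw [MonoidHom.mem_ker, map_commutatorElement, hσT2, hY]
      exact hcomm1 y t₂ h4)
    (by rw [MonoidHom.mem_ker, map_pow, hσÂ, ha3])
    (by
      intro n₁ n₂ n₃ hmem
      rw [MonoidHom.mem_ker, map_mul, map_mul, map_zpow, map_zpow, map_zpow, hσÂ, hσT1, hσT2,
        zpow_eq_pow_mod3 ha3, zpow_eq_pow_mod3 ht13, zpow_eq_pow_mod3 ht23] at hmem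
      have hb : ∀ n : ℤ, (n % 3).toNat < 3 := by
        intro n
        have h5 : 0 ≤ n % 3 := Int.emod_nonneg n (by norm_num)
        have h6 : n % 3 < 3 := Int.emod_lt_of_pos n (by norm_num)
        omega
      obtain ⟨e1, e2, e3⟩ := hind _ _ _ (hb n₁) (hb n₂) (hb n₃) hmem
      have hd : ∀ n : ℤ, (n % 3).toNat = 0 → (3 : ℤ) ∣ n := by
        intro n hn
        have h5 : 0 ≤ n % 3 := Int.emod_nonneg n (by norm_num)
        apply Int.dvd_of_emod_eq_zero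
        omega
      exact ⟨hd _ e1, hd _ e2, hd _ e3⟩)
    (by
      obtain ⟨i, j, hij⟩ := hca
      refine ⟨(i : ℤ), (j : ℤ), ?_⟩
      rw [MonoidHom.mem_ker]
      simp only [map_mul, map_inv, map_pow, hσÂ, hσT1, hσT2, hC, zpow_natCast, hij]
      have e1 : t₁ ^ i * t₂ ^ j * a = a * (t₁ ^ i * t₂ ^ j) :=
        hDcomm _ (D.mul_mem (D.pow_mem ht1D i) (D.pow_mem ht2D j)) _ haD
      have e2 : t₁ ^ i * t₂ ^ j = t₂ ^ j * t₁ ^ i :=
        hDcomm _ (D.pow_mem ht1D i) _ (D.pow_mem ht2D j)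
      calc a⁻¹ * (t₁ ^ i * t₂ ^ j) * a * (t₁ ^ i)⁻¹ * (t₂ ^ j)⁻¹
          = a⁻¹ * (t₁ ^ i * t₂ ^ j * a) * (t₁ ^ i)⁻¹ * (t₂ ^ j)⁻¹ := by group
        _ = a⁻¹ * (a * (t₁ ^ i * t₂ ^ j)) * (t₁ ^ i)⁻¹ * (t₂ ^ j)⁻¹ := by rw [e1]
        _ = (t₁ ^ i * t₂ ^ j) * (t₁ ^ i)⁻¹ * (t₂ ^ j)⁻¹ := by group
        _ = (t₂ ^ j * t₁ ^ i) * (t₁ ^ i)⁻¹ * (t₂ ^ j)⁻¹ := by rw [e2]
        _ = 1 := by group)
  obtain ⟨hk3, hkmain⟩ := key
  refine ⟨⁅X, ⁅X, Â⁆⁆, hk3, ?_⟩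
  intro g hg hgk hg3
  refine hkmain g ?_ hgk hg3
  have hle : (Subgroup.closure ({x, y} : Set G)).comap σ ≤
      Subgroup.closure ({X, Y} : Set Γ) ⊔ σ.ker := by
    intro w hw
    rw [Subgroup.mem_comap, ← hPdef] at hw
    exact hPcomap w hw
  exact Subgroup.commutator_mono hle hle hg

end Cfsg.Agent.Lib.Helper90.J3MMAIN3
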