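import Mathlib
import Cfsg.Prelude.Def_GeometricClasses
import Cfsg.Prelude.Def_LieClassical
import Cfsg.Agent.Lib.Helper71.Asch0
import Cfsg.Agent.Lib.Helper29.SPPTens

/-!
# Project SUQ (helper50), piece T2

For `q = 2` a subgroup of `GU` inside a tensor product subgroup `GU_2 ⊗ GU_k` stabilises a
decomposition into two orthogonal non-degenerate `k`-spaces: a non-degenerate unitary plane over
the field with four elements has exactly two non-isotropic points.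
-/

set_option autoImplicit false

namespace Cfsg.Agent.Lib.Helper90.SUQT2

open Matrix Cfsg.Geo Cfsg.Agent.Lib.Helper71.Asch
open Cfsg.Agent.Lib.Helper29.SPPTens
open scoped Kronecker

variable {n : ℕ} {F : Type*} [Field F] [Fintype F] {q : ℕ}

omit [Fintype F] in
/-- a form which is linear in the first and `σ`-semilinear in the second argument is given by
its Gram matrix -/
theorem sesq_gram {m : ℕ} (σ : F → F) (f : (Fin m → F) → (Fin m → F) → F)
    (hadd : ∀ x y v, f (x + y) v = f x v + f y v)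
    (hsmul : ∀ (c : F) (x v : Fin m → F), f (c • x) v = c * f x v)
    (hadd' : ∀ u x y, f u (x + y) = f u x + f u y)
    (hsmul' : ∀ (c : F) (u x : Fin m → F), f u (c • x) = σ c * f u x)
    (u v : Fin m → F) : f u v = ∑ i, ∑ j, u i * gramMatrix f i j * σ (v j) := by
  have hdec : ∀ x : Fin m → F, x = ∑ i, x i • (Pi.single i (1 : F) : Fin m → F) := by
    intro x
    funext j
    simp [Finset.sum_apply, Pi.single_apply]
  have hz' : ∀ u, f u 0 = 0 := by
    intro u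
    have h3 := hadd' u 0 0
    rw [add_zero] at h3
    linear_combination -h3
  have hL : ∀ x v, f x v = ∑ i, x i * f (Pi.single i 1) v := by
    intro x v
    let L : (Fin m → F) →ₗ[F] F :=
      { toFun := fun y => f y v
        map_add' := fun y z => hadd y z v
        map_smul' := fun c y => by simpa using hsmul c y v }
    have h3 : L x = ∑ i, x i * L (Pi.single i 1) := by
      conv_lhs => rw [hdec x]
      rw [map_sum]
      simp only [map_smul, smul_eq_mul]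
    exact h3
  have hR : ∀ x v, f x v = ∑ j, σ (v j) * f x (Pi.single j 1) := by
    intro x v
    let A : (Fin m → F) →+ F :=
      { toFun := fun y => f x y
        map_zero' := hz' x
        map_add' := fun y z => hadd' x y z }
    have h3 : A v = ∑ j, σ (v j) * A (Pi.single j 1) := by
      conv_lhs => rw [hdec v]
      rw [map_sum]
      apply Finset.sum_congr rfl
      intro j _
      exact hsmul' (v j) x (Pi.single j 1)
    exact h3
  rw [hL]
  apply Finset.sum_congr rfl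
  intro i _
  rw [hR, Finset.mul_sum]
  apply Finset.sum_congr rfl
  intro j _
  unfold gramMatrix
  ring

omit [Fintype F] in
theorem sesq_ptens {d k : ℕ} (σ : F → F) (hσ : ∀ a b : F, σ (a * b) = σ a * σ b)
    (f₁ : (Fin d → F) → (Fin d → F) → F) (f₂ : (Fin k → F) → (Fin k → F) → F)
    (h1 : ∀ u v, f₁ u v = ∑ i, ∑ j, u i * gramMatrix f₁ i j * σ (v j))
    (h2 : ∀ u v, f₂ u v = ∑ i, ∑ j, u i * gramMatrix f₂ i j * σ (v j))
    (u u' : Fin d → F) (v v' : Fin k → F) :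
    formOfGram σ (gramMatrix f₁ ⊗ₖ gramMatrix f₂) (ptens u v) (ptens u' v') =
      f₁ u u' * f₂ v v' := by
  rw [h1 u u', h2 v v']
  unfold formOfGram
  simp only [Fintype.sum_prod_type, ptens, Matrix.kroneckerMap_apply, hσ]
  rw [Finset.sum_mul_sum]
  apply Finset.sum_congr rfl
  intro i _
  apply Finset.sum_congr rfl
  intro j _
  rw [Finset.sum_mul_sum]
  apply Finset.sum_congr rfl
  intro i' _
  apply Finset.sum_congr rfl
  intro j' _
  ring

omit [Fintype F] in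
theorem herm_props {m : ℕ} (hsqadd : ∀ x y : F, (x + y) ^ 2 = x ^ 2 + y ^ 2)
    (f : (Fin m → F) → (Fin m → F) → F) (h : IsUnitaryFormPow 2 f) :
    (∀ u x y, f u (x + y) = f u x + f u y) ∧
      (∀ (c : F) (u x : Fin m → F), f u (c • x) = c ^ 2 * f u x) := by
  constructor
  · intro u x y
    rw [h.herm u (x + y), h.add_left, hsqadd, ← h.herm, ← h.herm]
  · intro c u x
    rw [h.herm u (c • x), h.smul_left, mul_pow, ← h.herm]

omit [Fintype F] in
/-- the linear map `w ↦ u ⊗ w` -/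
def ptL {k : ℕ} (u : Fin 2 → F) : (Fin k → F) →ₗ[F] (Fin 2 × Fin k → F) where
  toFun w := ptens u w
  map_add' w w' := by
    funext p
    simp only [ptens, Pi.add_apply]
    ring
  map_smul' c w := by
    funext p
    simp only [ptens, Pi.smul_apply, smul_eq_mul, RingHom.id_apply]
    ring

/-- T2: for `q = 2` a subgroup of `GU` inside a tensor product subgroup `GU_2 ⊗ GU_k` stabilises
a decomposition into two orthogonal non-degenerate `k`-spaces (`GU_2(2)` is monomial). -/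
theorem T2 (hF : Fintype.card F = q ^ 2) (hq : q = 2) (k : ℕ) (hk : 1 ≤ k)
    (H : Subgroup (GL (Fin n) F)) (hH : H ≤ Cfsg.GU n F q)
    (e : Fin n ≃ Fin 2 × Fin k) (P : GL (Fin n) F) (f₁ : (Fin 2 → F) → (Fin 2 → F) → F)
    (f₂ : (Fin k → F) → (Fin k → F) → F) (h1 : IsUnitaryFormPow q f₁)
    (h2 : IsUnitaryFormPow q f₂)
    (ht : IsTensorFormStructure (fun x : F => x ^ q) (Cfsg.hermForm n F q) f₁ f₂ e P)
    (hHT : H ≤ tensorProductSubgroup 2 k e P) :
    ∃ D : Fin 2 → Submodule F (Fin n → F),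
      IsNondegenerateMDecomposition (Cfsg.hermForm n F q) k D ∧
      H ≤ decompositionStabilizer D := by
  subst hq
  have hF4 : Fintype.card F = 4 := by rw [hF]; norm_num
  have hchar : ringChar F = 2 := by
    rw [FiniteField.even_card_iff_char_two, hF4]
  have h2F : (2 : F) = 0 := by
    have h3 := (ringChar.spec F 2).2 (by rw [hchar])
    exact_mod_cast h3
  have hsqadd : ∀ x y : F, (x + y) ^ 2 = x ^ 2 + y ^ 2 := by
    intro x y
    linear_combination (x * y) * h2F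
  have hcube : ∀ x : F, x ≠ 0 → x ^ 3 = 1 := by
    intro x hx
    have h3 := FiniteField.pow_card_sub_one_eq_one x hx
    rwa [hF4] at h3
  obtain ⟨c0, hc0⟩ : ∃ c : F, c ^ 2 ≠ c := by
    classical
    have hlt : ({0, 1} : Finset F).card < (Finset.univ : Finset F).card := by
      rw [Finset.card_univ, hF4]
      exact lt_of_le_of_lt Finset.card_le_two (by norm_num)
    obtain ⟨c, -, hc⟩ := Finset.exists_mem_notMem_of_card_lt_card hlt
    refine ⟨c, fun h => hc ?_⟩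
    have h3 : c * (c - 1) = 0 := by linear_combination h
    rcases mul_eq_zero.1 h3 with h4 | h4
    · simp [h4]
    · simp [sub_eq_zero.1 h4]
  have hidem : ∀ α : F, α ^ 2 = α → α ≠ 0 → α = 1 := by
    intro α h hα
    have h3 : α * (α - 1) = 0 := by linear_combination h
    rcases mul_eq_zero.1 h3 with h4 | h4
    · exact absurd h4 hα
    · exact sub_eq_zero.1 h4
  obtain ⟨hadd1, hsmul1⟩ := herm_props hsqadd f₁ h1
  obtain ⟨hadd2, hsmul2⟩ := herm_props hsqadd f₂ h2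
  have hG1 := sesq_gram (fun x : F => x ^ 2) f₁ h1.add_left h1.smul_left hadd1 hsmul1
  have hG2 := sesq_gram (fun x : F => x ^ 2) f₂ h2.add_left h2.smul_left hadd2 hsmul2
  obtain ⟨c, hc, hform0⟩ := ht
  have hform : ∀ (u u' : Fin 2 → F) (w w' : Fin k → F),
      Cfsg.hermForm n F 2 (P.1 *ᵥ (ptens u w ∘ e)) (P.1 *ᵥ (ptens u' w' ∘ e)) =
        c * (f₁ u u' * f₂ w w') := by
    intro u u' w w'
    rw [hform0, sesq_ptens (fun x : F => x ^ 2) (fun a b => mul_pow a b 2) f₁ f₂ hG1 hG2]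
  have hzl1 : ∀ v, f₁ 0 v = 0 := fun v => by
    have h3 := h1.smul_left 0 0 v
    rwa [zero_smul, zero_mul] at h3
  -- a non-isotropic vector
  obtain ⟨v₁, hv₁⟩ : ∃ v₁, f₁ v₁ v₁ ≠ 0 := by
    by_contra hcon
    push Not at hcon
    have hpol : ∀ (u v : Fin 2 → F) (t : F), t * f₁ v u + t ^ 2 * f₁ u v = 0 := by
      intro u v t
      have h3 := hcon (u + t • v)
      simp only [h1.add_left, hadd1, h1.smul_left, hsmul1] at h3
      rw [hcon u, hcon v] at h3
      linear_combination h3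
    have hzero : ∀ u v, f₁ u v = 0 := by
      intro u v
      have e1 := hpol u v 1
      have e2 := hpol u v c0
      have h4 : (c0 ^ 2 - c0) * f₁ u v = 0 := by linear_combination e2 - c0 * e1
      rcases mul_eq_zero.1 h4 with h5 | h5
      · exact absurd (sub_eq_zero.1 h5) hc0
      · exact h5
    have hne : (Pi.single (0 : Fin 2) 1 : Fin 2 → F) ≠ 0 := by
      intro h0
      have h5 := congrFun h0 0
      simp at h5
    obtain ⟨x, hx⟩ := (h1.nondegenerate _ hne).1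
    exact hx (hzero _ _)
  have hα1 : f₁ v₁ v₁ = 1 := hidem _ (h1.herm v₁ v₁).symm hv₁
  have hv₁0 : v₁ ≠ 0 := by
    rintro rfl
    exact hv₁ (hzl1 0)
  obtain ⟨v₂, hv₂0, hv₂1⟩ : ∃ v₂ : Fin 2 → F, v₂ ≠ 0 ∧ f₁ v₂ v₁ = 0 := by
    by_cases ha : f₁ (Pi.single 0 1) v₁ = 0
    · refine ⟨Pi.single 0 1, ?_, ha⟩
      intro h0
      have h5 := congrFun h0 0
      simp at h5
    · refine ⟨f₁ (Pi.single 1 1) v₁ • Pi.single 0 1 + (-f₁ (Pi.single 0 1) v₁) • Pi.single 1 1,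
        ?_, ?_⟩
      · intro h0
        have h5 := congrFun h0 1
        simp at h5
        exact ha h5
      · rw [h1.add_left, h1.smul_left, h1.smul_left]
        ring
  have hv₁₂ : f₁ v₁ v₂ = 0 := by
    rw [h1.herm v₁ v₂, hv₂1]
    norm_num
  have hli : LinearIndependent F ![v₁, v₂] := by
    rw [LinearIndependent.pair_iff]
    intro s t hst
    have h3 : f₁ (s • v₁ + t • v₂) v₁ = 0 := by rw [hst, hzl1]
    rw [h1.add_left, h1.smul_left, h1.smul_left, hα1, hv₂1] at h3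
    have hs : s = 0 := by linear_combination h3
    subst hs
    rw [zero_smul, zero_add] at hst
    refine ⟨rfl, ?_⟩
    rcases smul_eq_zero.1 hst with h4 | h4
    · exact h4
    · exact absurd h4 hv₂0
  have hspan : ∀ w : Fin 2 → F, ∃ x y : F, w = x • v₁ + y • v₂ := by
    intro w
    have h3 : Submodule.span F (Set.range ![v₁, v₂]) = ⊤ :=
      hli.span_eq_top_of_card_eq_finrank' (by simp)
    have h4 : w ∈ Submodule.span F (Set.range ![v₁, v₂]) := by rw [h3]; trivial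
    obtain ⟨cc, hcc⟩ := (Submodule.mem_span_range_iff_exists_fun F).1 h4
    rw [Fin.sum_univ_two] at hcc
    exact ⟨cc 0, cc 1, by rw [← hcc]; rfl⟩
  have hα2 : f₁ v₂ v₂ = 1 := by
    apply hidem _ (h1.herm v₂ v₂).symm
    obtain ⟨x, hx⟩ := (h1.nondegenerate v₂ hv₂0).1
    obtain ⟨s, t, rfl⟩ := hspan x
    intro h0
    apply hx
    rw [h1.add_left, h1.smul_left, h1.smul_left, hv₁₂, h0, mul_zero, mul_zero, add_zero]
  have hcl : ∀ w : Fin 2 → F, f₁ w w ≠ 0 → (∃ t : F, w = t • v₁) ∨ (∃ t : F, w = t • v₂) := by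
    intro w hw
    obtain ⟨x, y, rfl⟩ := hspan w
    have h3 : f₁ (x • v₁ + y • v₂) (x • v₁ + y • v₂) = x ^ 3 + y ^ 3 := by
      simp only [h1.add_left, hadd1, h1.smul_left, hsmul1]
      rw [hα1, hα2, hv₁₂, hv₂1]
      ring
    by_cases hx : x = 0
    · right
      exact ⟨y, by rw [hx, zero_smul, zero_add]⟩
    · by_cases hy : y = 0
      · left
        exact ⟨x, by rw [hy, zero_smul, add_zero]⟩
      · exfalso
        apply hw
        rw [h3, hcube x hx, hcube y hy]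
        linear_combination h2F
  -- the blocks
  obtain ⟨Φ, hΦ⟩ : ∃ Φ : (Fin 2 → F) → ((Fin k → F) →ₗ[F] (Fin n → F)),
      ∀ u w, Φ u w = P.1 *ᵥ (ptens u w ∘ e) :=
    ⟨fun u => (tT e P).comp (ptL u), fun u w => rfl⟩
  have hΦinj : ∀ u : Fin 2 → F, u ≠ 0 → Function.Injective (Φ u) := by
    intro u hu w w' hww'
    rw [hΦ, hΦ] at hww'
    have h3 : ptens u w = ptens u w' := tT_injective e P hww'
    obtain ⟨a, ha⟩ := Function.ne_iff.1 hu
    have ha' : u a ≠ 0 := ha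
    funext b
    have h4 := congrFun h3 (a, b)
    simp only [ptens] at h4
    exact mul_left_cancel₀ ha' h4
  have hform' : ∀ (u u' : Fin 2 → F) (w w' : Fin k → F),
      Cfsg.hermForm n F 2 (Φ u w) (Φ u' w') = c * (f₁ u u' * f₂ w w') := by
    intro u u' w w'
    rw [hΦ, hΦ]
    exact hform u u' w w'
  have hfr : ∀ u : Fin 2 → F, u ≠ 0 → Module.finrank F (LinearMap.range (Φ u)) = k := by
    intro u hu
    rw [LinearMap.finrank_range_of_inj (hΦinj u hu)]
    simp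
  have horth : ∀ u u' : Fin 2 → F, f₁ u u' = 0 →
      AreOrthogonalFor (Cfsg.hermForm n F 2) (LinearMap.range (Φ u))
        (LinearMap.range (Φ u')) := by
    rintro u u' h0 _ ⟨w, rfl⟩ _ ⟨w', rfl⟩
    rw [hform', h0, zero_mul, mul_zero]
  have hnd : ∀ u : Fin 2 → F, f₁ u u ≠ 0 →
      IsNondegenerateOn (Cfsg.hermForm n F 2) (LinearMap.range (Φ u)) := by
    rintro u hu _ ⟨w, rfl⟩ hne
    have hw : w ≠ 0 := by
      rintro rfl
      exact hne (map_zero _)
    obtain ⟨⟨x, hx⟩, ⟨y, hy⟩⟩ := h2.nondegenerate w hw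
    refine ⟨⟨Φ u x, ⟨x, rfl⟩, ?_⟩, ⟨Φ u y, ⟨y, rfl⟩, ?_⟩⟩
    · rw [hform']
      exact mul_ne_zero hc (mul_ne_zero hu hx)
    · rw [hform']
      exact mul_ne_zero hc (mul_ne_zero hu hy)
  have hne1 : f₁ v₁ v₁ ≠ 0 := by rw [hα1]; exact one_ne_zero
  have hne2 : f₁ v₂ v₂ ≠ 0 := by rw [hα2]; exact one_ne_zero
  have hdisj : Disjoint (LinearMap.range (Φ v₁)) (LinearMap.range (Φ v₂)) := by
    rw [Submodule.disjoint_def]
    intro x hx1 hx2
    by_contra hx0
    obtain ⟨⟨y, hy, hyx⟩, -⟩ := hnd v₁ hne1 x hx1 hx0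
    exact hyx (horth v₁ v₂ hv₁₂ y hy x hx2)
  obtain ⟨D, hD0, hD1⟩ : ∃ D : Fin 2 → Submodule F (Fin n → F),
      D 0 = LinearMap.range (Φ v₁) ∧ D 1 = LinearMap.range (Φ v₂) := ⟨![_, _], rfl, rfl⟩
  have hn : n = 2 * k := by
    have h3 := Fintype.card_congr e
    simpa using h3
  have htop : iSup D = ⊤ := by
    have h3 : iSup D = D 0 ⊔ D 1 :=
      le_antisymm (iSup_le (Fin.forall_fin_two.2 ⟨le_sup_left, le_sup_right⟩))
        (sup_le (le_iSup D 0) (le_iSup D 1))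
    rw [h3, hD0, hD1]
    apply Submodule.eq_top_of_finrank_eq
    have h4 := Submodule.finrank_sup_add_finrank_inf_eq (LinearMap.range (Φ v₁))
      (LinearMap.range (Φ v₂))
    rw [hdisj.eq_bot, finrank_bot, add_zero, hfr v₁ hv₁0, hfr v₂ hv₂0] at h4
    rw [h4, Module.finrank_fin_fun]
    omega
  have hindep : iSupIndep D :=
    (iSupIndep_pair (i := (0 : Fin 2)) (j := 1) (by decide) (by decide)).2
      (by rw [hD0, hD1]; exact hdisj)
  refine ⟨D, ⟨⟨le_rfl, by omega, Fin.forall_fin_two.2 ⟨?_, ?_⟩, hindep, htop⟩,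
    Fin.forall_fin_two.2 ⟨?_, ?_⟩,
    Fin.forall_fin_two.2 ⟨Fin.forall_fin_two.2 ⟨fun h => absurd rfl h, fun _ => ?_⟩,
      Fin.forall_fin_two.2 ⟨fun _ => ?_, fun h => absurd rfl h⟩⟩⟩, ?_⟩
  · rw [hD0]; exact hfr v₁ hv₁0
  · rw [hD1]; exact hfr v₂ hv₂0
  · rw [hD0]; exact hnd v₁ hne1
  · rw [hD1]; exact hnd v₂ hne2
  · rw [hD0, hD1]; exact horth v₁ v₂ hv₁₂
  · rw [hD0, hD1]; exact horth v₂ v₁ hv₂1
  -- the stabiliser
  intro g hg
  obtain ⟨a, b, hab⟩ := (mem_tensorProductSubgroup_iff e P g).1 (hHT hg)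
  have hinv : ∀ (u u' : Fin 2 → F) (w w' : Fin k → F),
      f₁ (a.1 *ᵥ u) (a.1 *ᵥ u') * f₂ (b.1 *ᵥ w) (b.1 *ᵥ w') = f₁ u u' * f₂ w w' := by
    intro u u' w w'
    have h3 : Cfsg.hermForm n F 2 (g.1 *ᵥ (P.1 *ᵥ (ptens u w ∘ e)))
        (g.1 *ᵥ (P.1 *ᵥ (ptens u' w' ∘ e))) =
        Cfsg.hermForm n F 2 (P.1 *ᵥ (ptens u w ∘ e)) (P.1 *ᵥ (ptens u' w' ∘ e)) := hH hg _ _
    rw [hab, tmat_mulVec, tmat_mulVec, kron_mulVec_ptens, kron_mulVec_ptens, hform, hform] at h3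
    exact mul_left_cancel₀ hc h3
  have hw0 : (Pi.single (⟨0, hk⟩ : Fin k) 1 : Fin k → F) ≠ 0 := by
    intro h0
    have h5 := congrFun h0 ⟨0, hk⟩
    simp at h5
  obtain ⟨w', hw'⟩ := (h2.nondegenerate _ hw0).2
  obtain ⟨w0, hw0def⟩ : ∃ w0 : Fin k → F, w0 = Pi.single (⟨0, hk⟩ : Fin k) 1 := ⟨_, rfl⟩
  rw [← hw0def] at hw'
  have hμ : f₂ (b.1 *ᵥ w0) (b.1 *ᵥ w') ≠ 0 := by
    intro h0
    have h3 := hinv v₁ v₁ w0 w'
    rw [h0, mul_zero, hα1, one_mul] at h3
    exact hw' h3.symm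
  have hsim_ne : ∀ u u', f₁ u u' ≠ 0 → f₁ (a.1 *ᵥ u) (a.1 *ᵥ u') ≠ 0 := by
    intro u u' hne h0
    have h3 := hinv u u' w0 w'
    rw [h0, zero_mul] at h3
    exact mul_ne_zero hne hw' h3.symm
  have hsim_z : ∀ u u', f₁ u u' = 0 → f₁ (a.1 *ᵥ u) (a.1 *ᵥ u') = 0 := by
    intro u u' h0
    have h3 := hinv u u' w0 w'
    rw [h0, zero_mul] at h3
    rcases mul_eq_zero.1 h3 with h4 | h4
    · exact h4
    · exact absurd h4 hμ
  have hginj : Function.Injective (Matrix.toLin' g.1) := by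
    intro x y hxy
    rw [Matrix.toLin'_apply, Matrix.toLin'_apply] at hxy
    have h3 := congrArg (fun z => (g⁻¹ : GL (Fin n) F).1 *ᵥ z) hxy
    simp only [Matrix.mulVec_mulVec, ← Units.val_mul, inv_mul_cancel, Units.val_one,
      Matrix.one_mulVec] at h3
    exact h3
  have hmap : ∀ (u u' : Fin 2 → F) (t : F), u ≠ 0 → u' ≠ 0 → a.1 *ᵥ u = t • u' →
      (LinearMap.range (Φ u)).map (Matrix.toLin' g.1) = LinearMap.range (Φ u') := by
    intro u u' t hu hu' hau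
    apply Submodule.eq_of_le_of_finrank_eq
    · rintro _ ⟨_, ⟨w, rfl⟩, rfl⟩
      refine ⟨t • (b.1 *ᵥ w), ?_⟩
      have h5 : ptens u' (t • (b.1 *ᵥ w)) = ptens (t • u') (b.1 *ᵥ w) := by
        funext p
        simp only [ptens, Pi.smul_apply, smul_eq_mul]
        ring
      rw [Matrix.toLin'_apply, hΦ, hΦ, hab, tmat_mulVec, kron_mulVec_ptens, hau, h5]
    · rw [hfr u' hu', ← (Submodule.equivMapOfInjective _ hginj _).finrank_eq, hfr u hu]
  have hav₁ := hcl (a.1 *ᵥ v₁) (hsim_ne v₁ v₁ hne1)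
  have hav₂ := hcl (a.1 *ᵥ v₂) (hsim_ne v₂ v₂ hne2)
  have hav₁₂ : f₁ (a.1 *ᵥ v₁) (a.1 *ᵥ v₂) = 0 := hsim_z v₁ v₂ hv₁₂
  have hbad : ∀ (u : Fin 2 → F) (t₁ t₂ : F), f₁ u u = 1 → a.1 *ᵥ v₁ = t₁ • u →
      a.1 *ᵥ v₂ = t₂ • u → False := by
    intro u t₁ t₂ hu ht₁ ht₂
    have h3 := hav₁₂
    rw [ht₁, ht₂, h1.smul_left, hsmul1, hu, mul_one] at h3
    rcases mul_eq_zero.1 h3 with h4 | h4
    · apply hsim_ne v₁ v₁ hne1
      rw [ht₁, h4, zero_smul, hzl1]
    · have h5 : t₂ = 0 := by simpa using h4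
      apply hsim_ne v₂ v₂ hne2
      rw [ht₂, h5, zero_smul, hzl1]
  show ∃ σ : Equiv.Perm (Fin 2), ∀ i, (D i).map (Matrix.toLin' g.1) = D (σ i)
  rcases hav₁ with ⟨t₁, ht₁⟩ | ⟨t₁, ht₁⟩ <;> rcases hav₂ with ⟨t₂, ht₂⟩ | ⟨t₂, ht₂⟩
  · exact (hbad v₁ t₁ t₂ hα1 ht₁ ht₂).elim
  · refine ⟨1, Fin.forall_fin_two.2 ⟨?_, ?_⟩⟩
    · show (D 0).map (Matrix.toLin' g.1) = D 0
      rw [hD0]
      exact hmap v₁ v₁ t₁ hv₁0 hv₁0 ht₁
    · show (D 1).map (Matrix.toLin' g.1) = D 1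
      rw [hD1]
      exact hmap v₂ v₂ t₂ hv₂0 hv₂0 ht₂
  · refine ⟨Equiv.swap 0 1, Fin.forall_fin_two.2 ⟨?_, ?_⟩⟩
    · show (D 0).map (Matrix.toLin' g.1) = D (Equiv.swap (0 : Fin 2) 1 0)
      rw [Equiv.swap_apply_left, hD0, hD1]
      exact hmap v₁ v₂ t₁ hv₁0 hv₂0 ht₁
    · show (D 1).map (Matrix.toLin' g.1) = D (Equiv.swap (0 : Fin 2) 1 1)
      rw [Equiv.swap_apply_right, hD1, hD0]
      exact hmap v₂ v₁ t₂ hv₂0 hv₁0 ht₂
  · exact (hbad v₂ t₁ t₂ hα2 ht₁ ht₂).elim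

end Cfsg.Agent.Lib.Helper90.SUQT2
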