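import Cfsg.Agent.Lib.Helper98.T73Defs

/-!
# Project T73 (S5973, helper98), piece SUMTS

The sum of an invariant totally singular subspace of `range (g - 1)` and a totally singular
subspace of `ker (g - 1)` is an invariant totally singular subspace of the sum of the dimensions.
-/

set_option autoImplicit false

namespace Cfsg.Agent.Lib.Helper98.T73

open Cfsg.Agent.Lib.Helper47 Module Polynomial

universe u

variable {F : Type u} [Field F] [Fintype F] {V : Type u} [AddCommGroup V] [Module F V]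
  [FiniteDimensional F V] {Q : V → F} {B : V → V → F}

/-- SUMTS -/
theorem sum_ts (hQ : IsQuad Q B) (p : ℕ) [Fact p.Prime] [CharP F p] (r : ℕ) (hr : r.Prime)
    (hrp : r ≠ p) (g : Module.End F V) (hgQ : QI Q g) (hg : g ^ r = 1) (U U' : Submodule F V)
    (hU : U ≤ LinearMap.range (g - 1)) (hU' : U' ≤ LinearMap.ker (g - 1)) (hUg : U.map g ≤ U)
    (hUts : TS Q U) (hU'ts : TS Q U') :
    TS Q (U ⊔ U') ∧ (U ⊔ U').map g ≤ U ⊔ U' ∧
      finrank F ↥(U ⊔ U') = finrank F U + finrank F U' := by
  have hrF : ((r : ℕ) : F) ≠ 0 := by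
    intro h0
    rw [CharP.cast_eq_zero_iff F p r] at h0
    exact hrp ((Nat.prime_dvd_prime_iff_eq (Fact.out : p.Prime) hr).1 h0).symm
  have hfix : ∀ c ∈ U', g c = c := fun c hc => (mem_ker_sub_one g c).1 (hU' hc)
  have hBg : ∀ x y : V, B (g x) (g y) = B x y := fun x y => hQ.isometry hQ g hgQ x y
  have horth : ∀ x ∈ U, ∀ c ∈ U', B x c = 0 := by
    intro x hx c hc
    obtain ⟨v, rfl⟩ := hU hx
    have h1 : B (g v) c = B ((g - 1) v) c + B v c := by
      rw [← hQ.form.add_left]
      congr 1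
      rw [LinearMap.sub_apply, Module.End.one_apply, sub_add_cancel]
    have h2 : B (g v) c = B v c := by
      conv_lhs => rw [← hfix c hc]
      exact hBg v c
    rw [h2] at h1
    linear_combination -h1
  refine ⟨?_, ?_, ?_⟩
  · intro w hw
    obtain ⟨x, hx, c, hc, rfl⟩ := Submodule.mem_sup.1 hw
    rw [hQ.polar, hUts x hx, hU'ts c hc, horth x hx c hc]
    ring
  · rw [Submodule.map_sup]
    refine sup_le_sup hUg ?_
    rintro _ ⟨c, hc, rfl⟩
    have h3 : g c = c := hfix c hc
    rw [h3]
    exact hc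
  · have h4 := Submodule.finrank_sup_add_finrank_inf_eq U U'
    have h5 : U ⊓ U' = ⊥ := by
      rw [eq_bot_iff]
      intro x hx
      have h6 : x ∈ LinearMap.ker (g - 1) ⊓ LinearMap.range (g - 1) := ⟨hU' hx.2, hU hx.1⟩
      rw [(disjoint_ker_range g r hrF hg).eq_bot] at h6
      exact h6
    rw [h5, finrank_bot, add_zero] at h4
    exact h4

end Cfsg.Agent.Lib.Helper98.T73
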