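import Mathlib
import Cfsg.Agent.S1451
import Cfsg.Agent.Lib.Helper34.Rank2c
import Cfsg.Agent.Lib.Helper40.PiCore
import Cfsg.Agent.Lib.Helper29.Bender

/-!
# B&G 10.2, piece C (helper90 for helper3): `O_π(H)` is a Hall subgroup when all
`π`-elements lie in `H'` and the `π'`-ranks are at most 2
-/

set_option autoImplicit false
open Cfsg
universe u

namespace Cfsg.Agent.Lib.Helper90.BG10

theorem card_le_of_forall_eq_one {G : Type*} [Group G] (A : Subgroup G)
    (h : ∀ a ∈ A, a = 1) (q k : ℕ) (hq : 0 < q) : Nat.card A ≤ q ^ k := by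
  have h0 : A = ⊥ := (Subgroup.eq_bot_iff_forall A).mpr h
  rw [h0, Subgroup.card_bot]
  exact Nat.one_le_pow _ _ hq

theorem alpha_core_hall_aux {H : Type u} [Group H] [Finite H] [Group.IsSolvable H]
    (hodd : Odd (Nat.card H)) (π : Set ℕ)
    (h1 : ∀ q : ℕ, q.Prime → q ∉ π → PRankLE q 2 H)
    (h2 : ∀ p : ℕ, p.Prime → p ∈ π → ∀ x : H, (∃ k : ℕ, orderOf x = p ^ k) → x ∈ commutator H) :
    (∀ p : ℕ, p.Prime → p ∈ π → ¬ p ∣ (piCore π H).index) ∧
    RankLE 2 (H ⧸ piCore π H) ∧
    Group.IsNilpotent ↥((commutator H).map (QuotientGroup.mk' (piCore π H))) := by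
  classical
  -- Fact A: the Fitting subgroup of the quotient has no `π`-elements
  have hA : ∀ q : ℕ, q.Prime → q ∈ π → ∀ y : H ⧸ piCore π H,
      y ∈ fittingSubgroup (H ⧸ piCore π H) → ∀ k : ℕ, y ^ q ^ k = 1 → y = 1 := by
    intro q hq hqπ y hy k hyk
    have : Fact q.Prime := ⟨hq⟩
    obtain ⟨j, -, hj⟩ := (Nat.dvd_prime_pow hq).mp (orderOf_dvd_of_pow_eq_one hyk)
    have h3 : y ∈ pCore q (H ⧸ piCore π H) :=
      Cfsg.Agent.Lib.Helper29.mem_pCore_of_mem_fitting q hy hj
    have h4 : pCore q (H ⧸ piCore π H) ≤ piCore π (H ⧸ piCore π H) := by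
      apply Cfsg.Agent.Lib.Helper40.le_piCore_of_normal
        (Subgroup.sSup_normal _ (fun _ h => h.1))
      intro r hr hrd
      obtain ⟨n, hn⟩ := IsPGroup.exists_card_eq
        (Cfsg.Agent.Lib.Helper30.pCore_isPGroup (G := H ⧸ piCore π H) q)
      have hrd' : r ∣ Nat.card ↥(pCore q (H ⧸ piCore π H)) := hrd
      rw [hn] at hrd'
      have h5 := (Nat.prime_dvd_prime_iff_eq hr hq).mp (hr.dvd_of_dvd_pow hrd')
      rw [h5]; exact hqπ
    rw [Cfsg.Agent.Lib.Helper40.piCore_quotient] at h4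
    exact (Subgroup.mem_bot).mp (h4 h3)
  -- Fact B: the ranks for `q ∉ π`
  have hB : ∀ q : ℕ, q.Prime → q ∉ π → PRankLE q 2 (H ⧸ piCore π H) := by
    intro q hq hqπ
    have : Fact q.Prime := ⟨hq⟩
    have hnd : ¬ q ∣ Nat.card (piCore π H) := fun hd =>
      hqπ (Cfsg.Agent.Lib.Helper40.isPiNat_card_piCore π q hq hd)
    have hcop : (Nat.card (piCore π H)).Coprime q :=
      Nat.Coprime.symm ((Nat.Prime.coprime_iff_not_dvd hq).mpr hnd)
    exact Cfsg.Agent.Lib.Helper34.prankLE_quotient_of_coprime q (piCore π H) hcop 2 (h1 q hq hqπ)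
  -- Fact C: the Fitting subgroup of the quotient has rank at most 2
  have hC : RankLE 2 ↥(fittingSubgroup (H ⧸ piCore π H)) := by
    intro q hq
    by_cases hqπ : q ∈ π
    · intro A _ hAq
      apply card_le_of_forall_eq_one A _ q 2 hq.pos
      intro a ha
      have h3 : (a : H ⧸ piCore π H) = 1 := by
        apply hA q hq hqπ _ a.2 1
        rw [pow_one, ← Subgroup.coe_pow, hAq a ha, Subgroup.coe_one]
      exact Subtype.ext h3
    · exact Cfsg.Agent.Lib.Helper34.prankLE_subgroup q 2 (hB q hq hqπ) _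
  -- Fact D: the commutator subgroup of the quotient is nilpotent
  have hoddq : Odd (Nat.card (H ⧸ piCore π H)) :=
    Odd.of_dvd_nat hodd (Subgroup.index_dvd_card (piCore π H))
  have hD : Group.IsNilpotent ↥(commutator (H ⧸ piCore π H)) :=
    (Cfsg.Agent.S1451.result hoddq (Or.inr hC)).1
  -- Fact E
  have hE : (commutator H).map (QuotientGroup.mk' (piCore π H))
      = commutator (H ⧸ piCore π H) := by
    rw [commutator_def, Subgroup.map_commutator,
      Subgroup.map_top_of_surjective _ (QuotientGroup.mk'_surjective (piCore π H)),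
      ← commutator_def]
  -- Fact F
  have hF : commutator (H ⧸ piCore π H) ≤ fittingSubgroup (H ⧸ piCore π H) :=
    le_sSup ⟨inferInstance, hD⟩
  -- Fact G: `π`-elements lie in the core
  have hG : ∀ p : ℕ, p.Prime → p ∈ π → ∀ x : H, ∀ k : ℕ, x ^ p ^ k = 1 → x ∈ piCore π H := by
    intro p hp hpπ x k hxk
    obtain ⟨j, -, hj⟩ := (Nat.dvd_prime_pow hp).mp (orderOf_dvd_of_pow_eq_one hxk)
    have h3 : x ∈ commutator H := h2 p hp hpπ x ⟨j, hj⟩
    have h4 : QuotientGroup.mk' (piCore π H) x ∈ fittingSubgroup (H ⧸ piCore π H) := by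
      apply hF
      rw [← hE]
      exact Subgroup.mem_map_of_mem _ h3
    have h5 : QuotientGroup.mk' (piCore π H) x = 1 := by
      apply hA p hp hpπ _ h4 k
      rw [← map_pow, hxk, map_one]
    exact (QuotientGroup.eq_one_iff x).mp h5
  -- first conclusion
  have h1st : ∀ p : ℕ, p.Prime → p ∈ π → ¬ p ∣ (piCore π H).index := by
    intro p hp hpπ hdvd
    have : Fact p.Prime := ⟨hp⟩
    obtain ⟨P⟩ : Nonempty (Sylow p H) := inferInstance
    have hle : (P : Subgroup H) ≤ piCore π H := by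
      intro x hx
      obtain ⟨k, hk⟩ := P.2 ⟨x, hx⟩
      apply hG p hp hpπ x k
      have h3 := congrArg Subtype.val hk
      rwa [Subgroup.coe_pow] at h3
    exact P.not_dvd_index (dvd_trans hdvd (Subgroup.index_dvd_of_le hle))
  refine ⟨h1st, ?_, ?_⟩
  · intro q hq
    by_cases hqπ : q ∈ π
    · intro A _ hAq
      apply card_le_of_forall_eq_one A _ q 2 hq.pos
      intro a ha
      by_contra hne
      have h3 : orderOf a = q := by
        rcases (Nat.dvd_prime hq).mp (orderOf_dvd_of_pow_eq_one (hAq a ha)) with h | h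
        · exact absurd (orderOf_eq_one_iff.mp h) hne
        · exact h
      apply h1st q hq hqπ
      have h4 : orderOf a ∣ Nat.card (H ⧸ piCore π H) := orderOf_dvd_natCard a
      rw [h3] at h4
      exact h4
    · exact hB q hq hqπ
  · rw [hE]
    exact hD

end Cfsg.Agent.Lib.Helper90.BG10
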