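import Mathlib
import Cfsg.Agent.Lib.Helper10.BWDefs
import Cfsg.Agent.Lib.Helper83.TGORTH
import Cfsg.Agent.Lib.Helper83.IrrBasic
import Cfsg.Agent.Lib.Helper22.WeakOrth

/-!
# S0997 case B2 (project BW, helper10): piece Z0

If `⟨θ conj θ, χ⟩ = 0` then `Σ_h χ(h⁻¹) θ(h a h⁻¹ b) = 0` (a sum of squares over `a, b`).
-/

set_option autoImplicit false

namespace Cfsg.Agent.Lib.Helper10.BW

open Cfsg
open scoped ComplexConjugate

universe u

variable {G : Type u} [Group G] [Fintype G]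

/-- `Σ_b θ(X b) θ(b⁻¹ Y) = (|G|/θ(1)) θ(X Y)` -/
theorem z0_sum_b (θ : IrrCharacter G) (X Y : G) :
    ∑ b : G, (θ : G → ℂ) (X * b) * (θ : G → ℂ) (b⁻¹ * Y) =
      (Nat.card G : ℂ) / (θ : G → ℂ) 1 * (θ : G → ℂ) (X * Y) := by
  rw [← Cfsg.Agent.Lib.Helper83.TG.irr_conv θ (X * Y)]
  refine Fintype.sum_equiv ((Equiv.mulLeft X).trans (Equiv.inv G)) _ _ (fun b => ?_)
  show (θ : G → ℂ) (X * b) * (θ : G → ℂ) (b⁻¹ * Y) =
    (θ : G → ℂ) ((X * b)⁻¹)⁻¹ * (θ : G → ℂ) ((X * b)⁻¹ * (X * Y))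
  rw [inv_inv]
  congr 2
  group

/-- `Σ_a θ(h a h⁻¹ h' a⁻¹ h'⁻¹) = |G| θ(h⁻¹h') θ(h'⁻¹h) / θ(1)` -/
theorem z0_sum_a (θ : IrrCharacter G) (h h' : G) :
    ∑ a : G, (θ : G → ℂ) (h * a * h⁻¹ * (h' * a⁻¹ * h'⁻¹)) =
      (Nat.card G : ℂ) * (θ : G → ℂ) (h⁻¹ * h') * (θ : G → ℂ) (h'⁻¹ * h) / (θ : G → ℂ) 1 := by
  rw [← Cfsg.Agent.Lib.Helper22.irr_sum_conj_mul θ (h⁻¹ * h') (h'⁻¹ * h)]
  refine Finset.sum_congr rfl (fun a _ => ?_)
  rw [← Cfsg.Agent.Lib.Helper83.irr_classFunction θ.2 (a * (h⁻¹ * h') * a⁻¹ * (h'⁻¹ * h)) h]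
  group

/-- BW-Z0 -/
theorem z0 (θ χ : IrrCharacter G)
    (h0 : classInner (pc (θ : G → ℂ) (θ : G → ℂ)) (χ : G → ℂ) = 0) (a b : G) :
    ∑ h : G, (χ : G → ℂ) h⁻¹ * (θ : G → ℂ) (h * a * h⁻¹ * b) = 0 := by
  classical
  have hG : (Nat.card G : ℂ) ≠ 0 := by
    have : 0 < Nat.card G := Nat.card_pos
    exact_mod_cast this.ne'
  obtain ⟨t, ht⟩ : ∃ t : G → ℂ, t = (θ : G → ℂ) := ⟨_, rfl⟩
  obtain ⟨c, hc⟩ : ∃ c : G → ℂ, c = (χ : G → ℂ) := ⟨_, rfl⟩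
  have htinv : ∀ g, t g⁻¹ = conj (t g) := fun g => by
    rw [ht]
    exact Cfsg.Agent.Lib.Helper83.irr_inv θ.2 g
  have hcinv : ∀ g, c g⁻¹ = conj (c g) := fun g => by
    rw [hc]
    exact Cfsg.Agent.Lib.Helper83.irr_inv χ.2 g
  have hsb : ∀ X Y : G, ∑ b : G, t (X * b) * t (b⁻¹ * Y) =
      (Nat.card G : ℂ) / t 1 * t (X * Y) := by
    rw [ht]
    exact z0_sum_b θ
  have hsa : ∀ h h' : G, ∑ a : G, t (h * a * h⁻¹ * (h' * a⁻¹ * h'⁻¹)) =
      (Nat.card G : ℂ) * t (h⁻¹ * h') * t (h'⁻¹ * h) / t 1 := by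
    rw [ht]
    exact z0_sum_a θ
  have hsc : ∀ w : G, ∑ h : G, c h⁻¹ * c (h * w) = (Nat.card G : ℂ) / c 1 * c w := by
    rw [hc]
    exact Cfsg.Agent.Lib.Helper83.TG.irr_conv χ
  have hzero : ∑ w : G, t w * t w⁻¹ * c w = 0 := by
    have h0' : (Nat.card G : ℂ)⁻¹ * ∑ g : G, t g * conj (t g) * conj (c g) = 0 := by
      rw [ht, hc]
      exact h0
    have h1 : ∑ g : G, t g * conj (t g) * conj (c g) = 0 := by
      rcases mul_eq_zero.1 h0' with h | h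
      · exact absurd (inv_eq_zero.1 h) hG
      · exact h
    have h2 : ∑ w : G, t w * t w⁻¹ * c w = conj (∑ g : G, t g * conj (t g) * conj (c g)) := by
      rw [map_sum]
      refine Finset.sum_congr rfl (fun w _ => ?_)
      rw [htinv, map_mul, map_mul, Complex.conj_conj, Complex.conj_conj]
      ring
    rw [h2, h1, map_zero]
  rw [← ht, ← hc]
  obtain ⟨Ψ, hΨ⟩ : ∃ Ψ : G → G → ℂ,
      Ψ = fun a b => ∑ h : G, c h⁻¹ * t (h * a * h⁻¹ * b) := ⟨_, rfl⟩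
  have hΨab : ∀ a b, Ψ a b = ∑ h : G, c h⁻¹ * t (h * a * h⁻¹ * b) := fun a b => by rw [hΨ]
  have hconjΨ : ∀ a b, conj (Ψ a b) = ∑ h' : G, c h' * t (b⁻¹ * (h' * a⁻¹ * h'⁻¹)) := by
    intro a b
    rw [hΨab, map_sum]
    refine Finset.sum_congr rfl (fun h _ => ?_)
    rw [map_mul, ← hcinv, inv_inv, ← htinv]
    congr 2
    group
  obtain ⟨K, hK⟩ : ∃ K : ℂ, K = (Nat.card G : ℂ) / t 1 := ⟨_, rfl⟩
  have hstep1 : ∀ a : G, ∑ b : G, Ψ a b * conj (Ψ a b) =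
      ∑ h : G, ∑ h' : G, (c h⁻¹ * c h') * (K * t (h * a * h⁻¹ * (h' * a⁻¹ * h'⁻¹))) := by
    intro a
    calc ∑ b : G, Ψ a b * conj (Ψ a b)
        = ∑ b : G, ∑ h : G, ∑ h' : G,
            (c h⁻¹ * c h') * (t (h * a * h⁻¹ * b) * t (b⁻¹ * (h' * a⁻¹ * h'⁻¹))) := by
          refine Finset.sum_congr rfl (fun b _ => ?_)
          rw [hconjΨ, hΨab, Finset.sum_mul_sum]
          refine Finset.sum_congr rfl (fun h _ => Finset.sum_congr rfl (fun h' _ => ?_))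
          ring
      _ = ∑ h : G, ∑ h' : G, ∑ b : G,
            (c h⁻¹ * c h') * (t (h * a * h⁻¹ * b) * t (b⁻¹ * (h' * a⁻¹ * h'⁻¹))) := by
          rw [Finset.sum_comm]
          refine Finset.sum_congr rfl (fun h _ => ?_)
          rw [Finset.sum_comm]
      _ = _ := by
          refine Finset.sum_congr rfl (fun h _ => Finset.sum_congr rfl (fun h' _ => ?_))
          rw [← Finset.mul_sum, hsb, hK]
  have hT : ∑ a : G, ∑ b : G, Ψ a b * conj (Ψ a b) = 0 := by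
    calc ∑ a : G, ∑ b : G, Ψ a b * conj (Ψ a b)
        = ∑ a : G, ∑ h : G, ∑ h' : G,
            (c h⁻¹ * c h') * (K * t (h * a * h⁻¹ * (h' * a⁻¹ * h'⁻¹))) :=
          Finset.sum_congr rfl (fun a _ => hstep1 a)
      _ = ∑ h : G, ∑ h' : G, (c h⁻¹ * c h') *
            (K * ((Nat.card G : ℂ) * t (h⁻¹ * h') * t (h'⁻¹ * h) / t 1)) := by
          rw [Finset.sum_comm]
          refine Finset.sum_congr rfl (fun h _ => ?_)
          rw [Finset.sum_comm]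
          refine Finset.sum_congr rfl (fun h' _ => ?_)
          rw [← Finset.mul_sum, ← Finset.mul_sum, hsa]
      _ = ∑ h : G, ∑ w : G, (c h⁻¹ * c (h * w)) *
            (K * ((Nat.card G : ℂ) * t w * t w⁻¹ / t 1)) := by
          refine Finset.sum_congr rfl (fun h _ => ?_)
          refine Fintype.sum_equiv (Equiv.mulLeft h⁻¹) _ _ (fun h' => ?_)
          show (c h⁻¹ * c h') * (K * ((Nat.card G : ℂ) * t (h⁻¹ * h') * t (h'⁻¹ * h) / t 1)) =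
            (c h⁻¹ * c (h * (h⁻¹ * h'))) *
              (K * ((Nat.card G : ℂ) * t (h⁻¹ * h') * t (h⁻¹ * h')⁻¹ / t 1))
          rw [mul_inv_cancel_left, mul_inv_rev, inv_inv]
      _ = ∑ w : G, (K * ((Nat.card G : ℂ) * t w * t w⁻¹ / t 1)) *
            ((Nat.card G : ℂ) / c 1 * c w) := by
          rw [Finset.sum_comm]
          refine Finset.sum_congr rfl (fun w _ => ?_)
          rw [← Finset.sum_mul, hsc]
          ring
      _ = K * ((Nat.card G : ℂ) / t 1) * ((Nat.card G : ℂ) / c 1) *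
            ∑ w : G, t w * t w⁻¹ * c w := by
          rw [Finset.mul_sum]
          refine Finset.sum_congr rfl (fun w _ => ?_)
          ring
      _ = 0 := by rw [hzero, mul_zero]
  have hre : ∑ a : G, ∑ b : G, Complex.normSq (Ψ a b) = 0 := by
    have h1 : ((∑ a : G, ∑ b : G, Complex.normSq (Ψ a b) : ℝ) : ℂ) = 0 := by
      rw [← hT]
      push_cast
      refine Finset.sum_congr rfl (fun a _ => Finset.sum_congr rfl (fun b _ => ?_))
      rw [Complex.mul_conj]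
    exact_mod_cast h1
  have h1 := (Finset.sum_eq_zero_iff_of_nonneg
    (fun a _ => Finset.sum_nonneg (fun b _ => Complex.normSq_nonneg (Ψ a b)))).1 hre a
    (Finset.mem_univ a)
  have h2 := (Finset.sum_eq_zero_iff_of_nonneg
    (fun b _ => Complex.normSq_nonneg (Ψ a b))).1 h1 b (Finset.mem_univ b)
  rw [← hΨab]
  exact Complex.normSq_eq_zero.1 h2

end Cfsg.Agent.Lib.Helper10.BW
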