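import Mathlib
import Cfsg.Agent.Lib.Helper78.HarDefs

/-!
# Piece BRIDGE of project HAR (helper78, S1235)

If every section of exponent two of a Sylow 2-subgroup has order at most 16, then the
sectional 2-rank of the group is at most 4.
-/

set_option autoImplicit false
set_option linter.style.haveILetI false

namespace Cfsg.Agent.Lib.Helper90.Har

open Cfsg.Agent.Lib.Helper78.Har
open scoped Pointwise

/-- the section bound for an arbitrary 2-subgroup of `G` -/
theorem bridge_aux {G : Type*} [Group G] [Finite G] (S : Sylow 2 G)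
    (h : ElemSecLE ↥(S : Subgroup G) 16) (P0 M0 : Subgroup G) (hP0 : IsPGroup 2 P0)
    (hM : M0 ≤ P0) (hn : ∀ x ∈ P0, ∀ m ∈ M0, x * m * x⁻¹ ∈ M0) (hsq : ∀ x ∈ P0, x ^ 2 ∈ M0) :
    Nat.card P0 ≤ 16 * Nat.card M0 := by
  haveI : Fact (Nat.Prime 2) := ⟨Nat.prime_two⟩
  obtain ⟨S', hS'⟩ := hP0.exists_le_sylow
  obtain ⟨c, hc⟩ := MulAction.exists_smul_eq G S S'
  have hS'S : ∀ x : G, x ∈ (S' : Subgroup G) ↔ c⁻¹ * x * c ∈ (S : Subgroup G) := by
    intro x
    have hcoe : ((c • S : Sylow 2 G) : Subgroup G) = MulAut.conj c • (S : Subgroup G) := rfl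
    rw [← hc, hcoe, Subgroup.mem_pointwise_smul_iff_inv_smul_mem]
    simp [MulAut.smul_def, mul_assoc]
  -- the embedding of `S` into `G` twisted by `c`
  let ψ : ↥(S : Subgroup G) →* G := (MulAut.conj c).toMonoidHom.comp (S : Subgroup G).subtype
  have hψ : ∀ s : ↥(S : Subgroup G), ψ s = c * (s : G) * c⁻¹ := fun s => rfl
  have hψinj : Function.Injective ψ := by
    intro s t hst
    rw [hψ, hψ] at hst
    apply Subtype.ext
    have : c⁻¹ * (c * (s : G) * c⁻¹) * c = c⁻¹ * (c * (t : G) * c⁻¹) * c := by rw [hst]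
    simpa [mul_assoc] using this
  have hrange : P0 ≤ ψ.range := by
    intro x hx
    refine ⟨⟨c⁻¹ * x * c, (hS'S x).1 (hS' hx)⟩, ?_⟩
    rw [hψ]
    show c * (c⁻¹ * x * c) * c⁻¹ = x
    group
  have hcard : ∀ Q : Subgroup G, Q ≤ P0 → Nat.card (Q.comap ψ) = Nat.card Q := by
    intro Q hQ
    rw [← Subgroup.card_map_of_injective hψinj (K := Q.comap ψ), Subgroup.map_comap_eq,
      inf_eq_right.2 (hQ.trans hrange)]
  have key := h (P0.comap ψ) (M0.comap ψ) (Subgroup.comap_mono hM)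
    (by
      intro x hx m hm
      rw [Subgroup.mem_comap] at hx hm ⊢
      rw [map_mul, map_mul, map_inv]
      exact hn _ hx _ hm)
    (by
      intro x hx
      rw [Subgroup.mem_comap] at hx ⊢
      rw [map_pow]
      exact hsq _ hx)
  rw [hcard P0 le_rfl, hcard M0 hM] at key
  exact key

-- PIECE BRIDGE
theorem sectional_of_sylow {G : Type*} [Group G] [Finite G] (S : Sylow 2 G)
    (h : ElemSecLE ↥(S : Subgroup G) 16) : Cfsg.SectionalPRankLE 2 4 G := by
  haveI : Fact (Nat.Prime 2) := ⟨Nat.prime_two⟩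
  intro H N _ A _ hA2
  -- `A` is a 2-group
  have hAp : IsPGroup 2 ↥A := by
    intro g
    refine ⟨1, Subtype.ext ?_⟩
    rw [pow_one, Subgroup.coe_pow, Subgroup.coe_one]
    exact hA2 g g.2
  obtain ⟨a, ha⟩ := IsPGroup.iff_card.1 hAp
  -- the preimage of `A`
  let φ : ↥H →* ↥H ⧸ N := QuotientGroup.mk' N
  have hφsurj : Function.Surjective φ := QuotientGroup.mk'_surjective N
  have hker : φ.ker = N := QuotientGroup.ker_mk' N
  obtain ⟨K₁, hK₁def⟩ : ∃ K₁ : Subgroup ↥H, K₁ = A.comap φ := ⟨_, rfl⟩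
  have hcardK : Nat.card K₁ = Nat.card A * Nat.card N := by
    have h1 : K₁.index = A.index := by rw [hK₁def]; exact Subgroup.index_comap_of_surjective A hφsurj
    have h2 : Nat.card K₁ * K₁.index = Nat.card ↥H := Subgroup.card_mul_index K₁
    have h3 : Nat.card A * A.index = Nat.card (↥H ⧸ N) := Subgroup.card_mul_index A
    have h4 : Nat.card ↥H = Nat.card (↥H ⧸ N) * Nat.card N := Subgroup.card_eq_card_quotient_mul_card_subgroup N
    have h5 : 0 < A.index := Nat.pos_of_ne_zero (Subgroup.index_ne_zero_of_finite)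
    rw [h1] at h2
    have h6 : Nat.card K₁ * A.index = (Nat.card A * Nat.card N) * A.index := by
      rw [h2, h4, ← h3]; ring
    exact Nat.eq_of_mul_eq_mul_right h5 h6
  -- a Sylow 2-subgroup of the preimage
  obtain ⟨Q⟩ : Nonempty (Sylow 2 ↥K₁) := inferInstance
  obtain ⟨Q1, hQ1def⟩ : ∃ Q1 : Subgroup ↥H, Q1 = (Q : Subgroup ↥K₁).map K₁.subtype := ⟨_, rfl⟩
  have hQ1K : Q1 ≤ K₁ := by rw [hQ1def]; exact Subgroup.map_subtype_le _
  have hQ1card : Nat.card Q1 = 2 ^ (Nat.card K₁).factorization 2 := by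
    rw [hQ1def, Subgroup.card_map_of_injective K₁.subtype_injective]
    exact Sylow.card_eq_multiplicity Q
  have hQ1p : IsPGroup 2 ↥Q1 := IsPGroup.of_card hQ1card
  -- push to `G`
  obtain ⟨P0, hP0def⟩ : ∃ P0 : Subgroup G, P0 = Q1.map H.subtype := ⟨_, rfl⟩
  obtain ⟨M0, hM0def⟩ : ∃ M0 : Subgroup G, M0 = (Q1 ⊓ N).map H.subtype := ⟨_, rfl⟩
  have hP0p : IsPGroup 2 ↥P0 := by rw [hP0def]; exact hQ1p.map _
  have hM0P0 : M0 ≤ P0 := by rw [hM0def, hP0def]; exact Subgroup.map_mono inf_le_left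
  have hcardP0 : Nat.card P0 = Nat.card Q1 := by
    rw [hP0def]; exact Subgroup.card_map_of_injective H.subtype_injective
  have hcardM0 : Nat.card M0 = Nat.card ↥(Q1 ⊓ N) := by
    rw [hM0def]; exact Subgroup.card_map_of_injective H.subtype_injective
  have hnorm : ∀ x ∈ P0, ∀ m ∈ M0, x * m * x⁻¹ ∈ M0 := by
    intro x hx m hm
    rw [hP0def] at hx
    rw [hM0def] at hm ⊢
    obtain ⟨x', hx', rfl⟩ := Subgroup.mem_map.1 hx
    obtain ⟨m', hm', rfl⟩ := Subgroup.mem_map.1 hm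
    refine Subgroup.mem_map.2 ⟨x' * m' * x'⁻¹, ⟨?_, ?_⟩, by simp⟩
    · exact Q1.mul_mem (Q1.mul_mem hx' hm'.1) (Q1.inv_mem hx')
    · exact ‹N.Normal›.conj_mem m' hm'.2 x'
  have hsq : ∀ x ∈ P0, x ^ 2 ∈ M0 := by
    intro x hx
    rw [hP0def] at hx
    rw [hM0def]
    obtain ⟨x', hx', rfl⟩ := Subgroup.mem_map.1 hx
    refine Subgroup.mem_map.2 ⟨x' ^ 2, ⟨Q1.pow_mem hx' 2, ?_⟩, by simp⟩
    have h1 : φ x' ∈ A := by
      have := hQ1K hx'
      rw [hK₁def] at this
      exact this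
    have h2 : φ (x' ^ 2) = 1 := by rw [map_pow]; exact hA2 _ h1
    rw [← hker]
    exact h2
  have key := bridge_aux S h P0 M0 hP0p hM0P0 hnorm hsq
  rw [hcardP0, hcardM0, hQ1card] at key
  -- the order of `Q1 ⊓ N`
  have hMp : IsPGroup 2 ↥(Q1 ⊓ N : Subgroup ↥H) := hQ1p.to_le inf_le_left
  obtain ⟨j, hj⟩ := IsPGroup.iff_card.1 hMp
  have hNpos : Nat.card N ≠ 0 := Nat.card_pos.ne'
  have hjle : j ≤ (Nat.card N).factorization 2 := by
    have hdvd : Nat.card ↥(Q1 ⊓ N : Subgroup ↥H) ∣ Nat.card N := Subgroup.card_dvd_of_le inf_le_right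
    rw [hj] at hdvd
    exact (Nat.Prime.pow_dvd_iff_le_factorization Nat.prime_two hNpos).1 hdvd
  have hfac : (Nat.card K₁).factorization 2 = a + (Nat.card N).factorization 2 := by
    rw [hcardK, Nat.factorization_mul (by rw [ha]; positivity) hNpos, ha]
    simp [Nat.Prime.factorization_pow Nat.prime_two]
  rw [hfac, hj] at key
  have h7 : 2 ^ j ≤ 2 ^ (Nat.card N).factorization 2 := Nat.pow_le_pow_right (by norm_num) hjle
  have h8 : 2 ^ (a + (Nat.card N).factorization 2) ≤ 16 * 2 ^ (Nat.card N).factorization 2 :=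
    le_trans key (Nat.mul_le_mul_left 16 h7)
  rw [pow_add] at h8
  have h9 : 2 ^ a ≤ 16 := Nat.le_of_mul_le_mul_right h8 (by positivity)
  rw [ha]
  norm_num
  exact h9

end Cfsg.Agent.Lib.Helper90.Har
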