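import Cfsg.Agent.Lib.Helper96.HyDefs
import Cfsg.Agent.Lib.Helper46.O72TISUB

/-!
Project HY (S5992, helper96), piece HYPSUB: a nondegenerate subspace `K` with
`2w + 1 ≤ finrank K` contains a hyperbolic subspace of finrank `2w`.
-/

set_option autoImplicit false
set_option linter.unusedSectionVars false
set_option linter.unusedVariables false

namespace Cfsg.Agent.Lib.Helper90.Hy

open Module Polynomial Cfsg.Agent.Lib.Helper96.Sp Cfsg.Agent.Lib.Helper96.Hy
  Cfsg.Agent.Lib.Helper47

universe u

variable {F : Type u} [Field F] [Fintype F] {V : Type u} [AddCommGroup V] [Module F V]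
  [FiniteDimensional F V] {B : LinearMap.BilinForm F V}

-- PIECE HYPSUB
theorem hyp_sub (hS : B.IsSymm) (h2 : (2 : F) ≠ 0) (K : Submodule F V) (hK : ND B K) (w : ℕ)
    (hw : 2 * w + 1 ≤ finrank F K) :
    ∃ W : Submodule F V, W ≤ K ∧ Hyp B W ∧ finrank F W = 2 * w := by
  induction w generalizing K with
  | zero =>
    refine ⟨⊥, bot_le, ⟨nd_bot, ⊥, le_refl _, ?_, ?_⟩, ?_⟩
    · intro u hu v hv
      rw [(Submodule.mem_bot F).mp hu, map_zero, LinearMap.zero_apply]
    · simp
    · simp
  | succ w ih =>
    obtain ⟨v, hvK, hv0, hvv⟩ :=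
      Cfsg.Agent.Lib.Helper98.O72.exists_singular hS h2 hK (by omega)
    have hex : ∃ u ∈ K, B v u ≠ 0 := by
      by_contra hcon
      push Not at hcon
      exact hv0 (hK v hvK hcon)
    obtain ⟨u, huK, hvu⟩ := hex
    have huv : B u v ≠ 0 := by
      rw [Cfsg.Agent.Lib.Helper98.O72.sym_swap hS h2 u v]
      exact hvu
    have hu0 : u ≠ 0 := by
      rintro rfl
      exact hvu (map_zero _)
    obtain ⟨H, hHdef⟩ : ∃ H : Submodule F V,
        H = Submodule.span F {v} ⊔ Submodule.span F {u} := ⟨_, rfl⟩
    have hvH' : Submodule.span F {v} ≤ H := by rw [hHdef]; exact le_sup_left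
    have huH' : Submodule.span F {u} ≤ H := by rw [hHdef]; exact le_sup_right
    have hvH : v ∈ H := hvH' (Submodule.mem_span_singleton_self v)
    have huH : u ∈ H := huH' (Submodule.mem_span_singleton_self u)
    have hHK : H ≤ K := by
      rw [hHdef]
      refine sup_le ?_ ?_
      · rw [Submodule.span_singleton_le_iff_mem]
        exact hvK
      · rw [Submodule.span_singleton_le_iff_mem]
        exact huK
    have hHnd : ND B H := by
      intro x hx hxH
      rw [hHdef] at hx
      obtain ⟨y, hy, z, hz, rfl⟩ := Submodule.mem_sup.mp hx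
      obtain ⟨a, rfl⟩ := Submodule.mem_span_singleton.mp hy
      obtain ⟨b, rfl⟩ := Submodule.mem_span_singleton.mp hz
      have h1 := hxH v hvH
      rw [map_add, LinearMap.add_apply, map_smul, map_smul, LinearMap.smul_apply,
        LinearMap.smul_apply, hvv, smul_zero, zero_add, smul_eq_mul] at h1
      have hb : b = 0 := (mul_eq_zero.mp h1).resolve_right huv
      have h3 := hxH u huH
      rw [hb, zero_smul, add_zero, map_smul, LinearMap.smul_apply, smul_eq_mul] at h3
      have ha : a = 0 := (mul_eq_zero.mp h3).resolve_right hvu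
      rw [ha, hb, zero_smul, zero_smul, add_zero]
    have hfinH : finrank F H = 2 := by
      have hdisj : Submodule.span F {v} ⊓ Submodule.span F {u} = ⊥ := by
        rw [eq_bot_iff]
        rintro x ⟨hx1, hx2⟩
        obtain ⟨a, rfl⟩ := Submodule.mem_span_singleton.mp hx1
        obtain ⟨b, hb⟩ := Submodule.mem_span_singleton.mp hx2
        have h1 : B v (b • u) = B v (a • v) := by rw [hb]
        rw [map_smul, map_smul, smul_eq_mul, smul_eq_mul, hvv, mul_zero] at h1
        have hb0 : b = 0 := (mul_eq_zero.mp h1).resolve_right hvu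
        rw [Submodule.mem_bot, ← hb, hb0, zero_smul]
      have h1 := Submodule.finrank_sup_add_finrank_inf_eq (Submodule.span F {v})
        (Submodule.span F {u})
      rw [hdisj, finrank_bot, add_zero, finrank_span_singleton hv0,
        finrank_span_singleton hu0, ← hHdef] at h1
      exact h1
    obtain ⟨hK'nd, hsup, hfin⟩ := Cfsg.Agent.Lib.Helper98.O72.nd_rel hS h2 hHnd hK hHK
    obtain ⟨W', hW'K', ⟨hW'nd, U', hU'W', hU'U', hU'fin⟩, hW'fin⟩ :=
      ih (K ⊓ B.orthogonal H) hK'nd (by omega)
    have hHW' : Orth B H W' := by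
      intro x hx y hy
      exact (mem_perp_iff.mp (hW'K' hy).2) x hx
    obtain ⟨hWnd, hWfin⟩ := Cfsg.Agent.Lib.Helper98.O72.nd_sup hS h2 hHnd hW'nd hHW'
    refine ⟨H ⊔ W', sup_le hHK (hW'K'.trans inf_le_left),
      ⟨hWnd, Submodule.span F {v} ⊔ U', ?_, ?_, ?_⟩, ?_⟩
    · exact sup_le_sup hvH' hU'W'
    · have o1 : Orth B (Submodule.span F {v}) (Submodule.span F {v}) := by
        intro x hx y hy
        obtain ⟨a, rfl⟩ := Submodule.mem_span_singleton.mp hx
        obtain ⟨b, rfl⟩ := Submodule.mem_span_singleton.mp hy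
        rw [map_smul, map_smul, LinearMap.smul_apply, hvv, smul_zero, smul_zero]
      have o2 : Orth B (Submodule.span F {v}) U' := orth_mono hHW' hvH' hU'W'
      have o3 : Orth B U' (Submodule.span F {v}) :=
        Cfsg.Agent.Lib.Helper98.O72.orth_symm hS h2 o2
      have o4 : Orth B (Submodule.span F {v}) (Submodule.span F {v} ⊔ U') :=
        orth_sup_right o1 o2
      have o5 : Orth B U' (Submodule.span F {v} ⊔ U') := orth_sup_right o3 hU'U'
      exact Cfsg.Agent.Lib.Helper98.O72.orth_symm hS h2
        (orth_sup_right (Cfsg.Agent.Lib.Helper98.O72.orth_symm hS h2 o4)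
          (Cfsg.Agent.Lib.Helper98.O72.orth_symm hS h2 o5))
    · have hdisj : Submodule.span F {v} ⊓ U' = ⊥ := by
        rw [eq_bot_iff]
        rintro x ⟨hx1, hx2⟩
        have hxH : x ∈ H := hvH' hx1
        have hxP : x ∈ B.orthogonal H := (hW'K' (hU'W' hx2)).2
        have h1 := Cfsg.Agent.Lib.Helper98.O72.nd_inf_perp hS h2 hHnd
        rw [← h1]
        exact ⟨hxH, hxP⟩
      have h1 := Submodule.finrank_sup_add_finrank_inf_eq (Submodule.span F {v}) U'
      rw [hdisj, finrank_bot, add_zero, finrank_span_singleton hv0] at h1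
      rw [h1, hWfin, hfinH]
      omega
    · rw [hWfin, hfinH, hW'fin]
      omega

end Cfsg.Agent.Lib.Helper90.Hy
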