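import Mathlib
import Cfsg.Agent.Lib.Helper58.JEDefs

/-!
# S2948 project JE (helper58), piece FTR

`ftr : FModStmt → FoursStmt`: transport of the module lemma to subgroups `A`, `U ≤ T` of `G`
acting by conjugation; the offender inequality comes from `IsMaxEA T A`.
-/

set_option autoImplicit false

namespace Cfsg.Agent.Lib.Helper90.JE

open Cfsg.Agent.Lib.Helper58.JE Cfsg.Agent.Lib.Helper72.JL Cfsg.Agent.Lib.Helper72.SC
  Cfsg.Agent.Lib.Helper78.Jc

universe u

variable {G : Type*} [Group G]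

/-- conjugation by `x` on a subgroup `U` which it normalizes -/
def ftrConj (U : Subgroup G) (x : G) (hx : ∀ u ∈ U, x * u * x⁻¹ ∈ U)
    (hx' : ∀ u ∈ U, x⁻¹ * u * x ∈ U) : MulAut ↥U where
  toFun u := ⟨x * u * x⁻¹, hx u u.2⟩
  invFun u := ⟨x⁻¹ * u * x, hx' u u.2⟩
  left_inv u := Subtype.ext (by simp [mul_assoc])
  right_inv u := Subtype.ext (by simp [mul_assoc])
  map_mul' u v := Subtype.ext (by simp [mul_assoc])

/-- the commutative group structure on an abelian subgroup -/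
@[reducible] def ftrComm (U : Subgroup G) (hUc : ∀ u ∈ U, ∀ v ∈ U, u * v = v * u) :
    CommGroup ↥U :=
  { (inferInstance : Group ↥U) with mul_comm := fun a b => Subtype.ext (hUc a a.2 b b.2) }

theorem ftr_card [Finite G] (H K E : Subgroup G) (hH : H ≤ E) (hK : K ≤ E) :
    Nat.card ↥H * Nat.card ↥K ≤ Nat.card ↥E * Nat.card ↥(H ⊓ K : Subgroup G) := by
  have h1 : Nat.card ↥(H ⊓ K : Subgroup G) * (H ⊓ K).relIndex K = Nat.card ↥K := by
    have := Subgroup.relIndex_mul_relIndex (⊥ : Subgroup G) (H ⊓ K) K bot_le inf_le_right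
    rwa [Subgroup.relIndex_bot_left, Subgroup.relIndex_bot_left] at this
  have h2 : Nat.card ↥H * H.relIndex E = Nat.card ↥E := by
    have := Subgroup.relIndex_mul_relIndex (⊥ : Subgroup G) H E bot_le hH
    rwa [Subgroup.relIndex_bot_left, Subgroup.relIndex_bot_left] at this
  have h3 : (H ⊓ K).relIndex K = H.relIndex K := Subgroup.inf_relIndex_right H K
  have h4 : H.relIndex K ≤ H.relIndex E := Subgroup.relIndex_le_of_le_right hK (by
    intro h0
    rw [h0, mul_zero] at h2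
    exact Nat.card_pos.ne' h2.symm)
  calc Nat.card ↥H * Nat.card ↥K
      = Nat.card ↥H * (Nat.card ↥(H ⊓ K : Subgroup G) * H.relIndex K) := by rw [← h3, h1]
    _ ≤ Nat.card ↥H * (Nat.card ↥(H ⊓ K : Subgroup G) * H.relIndex E) :=
        Nat.mul_le_mul_left _ (Nat.mul_le_mul_left _ h4)
    _ = (Nat.card ↥H * H.relIndex E) * Nat.card ↥(H ⊓ K : Subgroup G) := by ring
    _ = Nat.card ↥E * Nat.card ↥(H ⊓ K : Subgroup G) := by rw [h2]

theorem ftr (h : FModStmt.{u}) : FoursStmt.{u} := by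
  intro G _ _ T A U W₁ y b hA hbA hUT hUc hU2 hy3 hyU hAU hby hay hWU hW4 hyW hyfix hAW u hu
  obtain ⟨hAT, hAc, hA2, hAmax⟩ := hA
  have hy3' : y * y * y = 1 := by rw [← hy3, pow_succ, pow_two]
  have hyinv : y⁻¹ = y * y := inv_eq_of_mul_eq_one_right (by rw [← mul_assoc]; exact hy3')
  have hyU' : ∀ u ∈ U, y⁻¹ * u * y ∈ U := by
    intro u hu
    have h1 := hyU _ (hyU u hu)
    have h2 : y * (y * u * y⁻¹) * y⁻¹ = y⁻¹ * u * y := by
      calc y * (y * u * y⁻¹) * y⁻¹ = (y * y) * u * (y * y)⁻¹ := by group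
        _ = y⁻¹ * u * y := by rw [← hyinv, inv_inv]
    rwa [h2] at h1
  have hAU' : ∀ a ∈ A, ∀ u ∈ U, a⁻¹ * u * a ∈ U := fun a ha u hu => by
    have := hAU a⁻¹ (A.inv_mem ha) u hu
    rwa [inv_inv] at this
  obtain ⟨κ, hκ⟩ : ∃ κ : MulAut ↥U, κ = ftrConj U y hyU hyU' := ⟨_, rfl⟩
  have hκa : ∀ u : ↥U, ((κ u : ↥U) : G) = y * u * y⁻¹ := fun u => by rw [hκ]; rfl
  have hκi : ∀ u : ↥U, ((κ⁻¹ u : ↥U) : G) = y⁻¹ * u * y := fun u => by rw [hκ]; rfl
  obtain ⟨ρ, hρ⟩ : ∃ ρ : ↥A →* MulAut ↥U,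
      ∀ a : ↥A, ρ a = ftrConj U a (hAU a a.2) (hAU' a a.2) := by
    refine ⟨MonoidHom.mk' (fun a => ftrConj U a (hAU a a.2) (hAU' a a.2)) ?_, fun a => rfl⟩
    intro a a'
    refine MulEquiv.ext fun u => Subtype.ext ?_
    show ((a : G) * (a' : G)) * (u : G) * ((a : G) * (a' : G))⁻¹
      = (a : G) * ((a' : G) * (u : G) * (a' : G)⁻¹) * (a : G)⁻¹
    group
  have hρa : ∀ (a : ↥A) (u : ↥U), ((ρ a u : ↥U) : G) = a * u * (a : G)⁻¹ :=
    fun a u => by rw [hρ]; rfl
  have hρi : ∀ (a : ↥A) (u : ↥U), (((ρ a)⁻¹ u : ↥U) : G) = (a : G)⁻¹ * u * a :=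
    fun a u => by rw [hρ]; rfl
  have hconj : ∀ (a : ↥A) (u : ↥U), (((ρ a * κ * (ρ a)⁻¹) u : ↥U) : G)
      = ((a : G) * y * (a : G)⁻¹) * u * ((a : G) * y * (a : G)⁻¹)⁻¹ := by
    intro a u
    rw [MulAut.mul_apply, MulAut.mul_apply, hρa, hκa, hρi]
    group
  have hκ3 : κ ^ 3 = 1 := by
    have h1 : κ ^ 3 = κ * κ * κ := by rw [pow_succ, pow_two]
    rw [h1]
    refine MulEquiv.ext fun u => Subtype.ext ?_
    rw [MulAut.mul_apply, MulAut.mul_apply, hκa, hκa, hκa, MulAut.one_apply]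
    calc y * (y * (y * (u : G) * y⁻¹) * y⁻¹) * y⁻¹ = (y * y * y) * u * (y * y * y)⁻¹ := by group
      _ = u := by rw [hy3']; simp
  have hbκ : ρ ⟨b, hbA⟩ * κ * (ρ ⟨b, hbA⟩)⁻¹ = κ⁻¹ := by
    refine MulEquiv.ext fun u => Subtype.ext ?_
    rw [hconj, hκi]
    show (b * y * b⁻¹) * (u : G) * (b * y * b⁻¹)⁻¹ = y⁻¹ * u * y
    rw [hby, inv_inv]
  have haκ : ∀ a : ↥A, ρ a * κ * (ρ a)⁻¹ = κ ∨ ρ a * κ * (ρ a)⁻¹ = κ⁻¹ := by
    intro a
    rcases hay a a.2 with h1 | h1
    · left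
      refine MulEquiv.ext fun u => Subtype.ext ?_
      rw [hconj, hκa]
      exact h1 u u.2
    · right
      refine MulEquiv.ext fun u => Subtype.ext ?_
      rw [hconj, hκi]
      exact h1 u u.2
  have hW4' : Nat.card ↥(W₁.subgroupOf U) = 4 := by
    rw [Nat.card_congr (Subgroup.subgroupOfEquivOfLe hWU).toEquiv]
    exact hW4
  have hκW : ∀ w ∈ W₁.subgroupOf U, κ w ∈ W₁.subgroupOf U := by
    intro w hw
    rw [Subgroup.mem_subgroupOf] at hw ⊢
    rw [hκa]
    exact hyW _ hw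
  have hκfix : ∀ w ∈ W₁.subgroupOf U, κ w = w → w = 1 := by
    intro w hw hfix
    rw [Subgroup.mem_subgroupOf] at hw
    have h1 := congrArg Subtype.val hfix
    rw [hκa] at h1
    exact Subtype.ext (hyfix _ hw h1)
  have hρW : ∀ a : ↥A, ∀ w ∈ W₁.subgroupOf U, ρ a w ∈ W₁.subgroupOf U := by
    intro a w hw
    rw [Subgroup.mem_subgroupOf] at hw ⊢
    rw [hρa]
    exact hAW a a.2 _ hw
  have hoff : ∀ B : Subgroup ↥A, Nat.card ↥B * Nat.card {u : ↥U // ∀ a ∈ B, ρ a u = u} ≤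
      Nat.card ↥A * Nat.card {u : ↥U // ∀ a : ↥A, ρ a u = u} := by
    intro B
    obtain ⟨B', hB'⟩ : ∃ B' : Subgroup G, B' = B.map A.subtype := ⟨_, rfl⟩
    have hB'A : B' ≤ A := by
      rw [hB']
      rintro _ ⟨a, -, rfl⟩
      exact a.2
    have hcardB : Nat.card ↥B' = Nat.card ↥B := by rw [hB']; exact Subgroup.card_subtype A B
    obtain ⟨C, hC⟩ : ∃ C : Subgroup G, C = U ⊓ Subgroup.centralizer (B' : Set G) := ⟨_, rfl⟩
    have hCU : C ≤ U := by rw [hC]; exact inf_le_left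
    have hCcent : ∀ c ∈ C, ∀ x ∈ B', x * c = c * x := by
      intro c hc x hx
      rw [hC] at hc
      exact Subgroup.mem_centralizer_iff.1 hc.2 x hx
    have h1 : Nat.card {u : ↥U // ∀ a ∈ B, ρ a u = u} ≤ Nat.card ↥C := by
      refine Nat.card_le_card_of_injective (fun u => ⟨((u.1 : ↥U) : G), ?_⟩) ?_
      · rw [hC]
        refine Subgroup.mem_inf.2 ⟨u.1.2, ?_⟩
        rw [Subgroup.mem_centralizer_iff]
        intro x hx
        rw [hB'] at hx
        obtain ⟨a, ha, rfl⟩ := hx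
        have h2 := congrArg Subtype.val (u.2 a ha)
        rw [hρa] at h2
        show (a : G) * ((u.1 : ↥U) : G) = ((u.1 : ↥U) : G) * (a : G)
        calc (a : G) * ((u.1 : ↥U) : G)
            = ((a : G) * ((u.1 : ↥U) : G) * (a : G)⁻¹) * a := by group
          _ = ((u.1 : ↥U) : G) * (a : G) := by rw [h2]
      · intro u u' huu'
        have h4 : ((u.1 : ↥U) : G) = ((u'.1 : ↥U) : G) :=
          congrArg (fun z : ↥C => (z : G)) huu'
        exact Subtype.ext (Subtype.ext h4)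
    obtain ⟨E, hE⟩ : ∃ E : Subgroup G, E = B' ⊔ C := ⟨_, rfl⟩
    have hB'E : B' ≤ E := by rw [hE]; exact le_sup_left
    have hCE : C ≤ E := by rw [hE]; exact le_sup_right
    have hET : E ≤ T := by rw [hE]; exact sup_le (hB'A.trans hAT) (hCU.trans hUT)
    have hB'cent : B' ≤ Subgroup.centralizer (E : Set G) := by
      rw [Subgroup.le_centralizer_iff, hE]
      refine sup_le ?_ ?_
      · intro x hx
        rw [Subgroup.mem_centralizer_iff]
        intro z hz
        exact hAc z (hB'A hz) x (hB'A hx)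
      · intro c hc
        rw [Subgroup.mem_centralizer_iff]
        intro z hz
        exact hCcent c hc z hz
    have hCcentE : C ≤ Subgroup.centralizer (E : Set G) := by
      rw [Subgroup.le_centralizer_iff, hE]
      refine sup_le ?_ ?_
      · intro x hx
        rw [Subgroup.mem_centralizer_iff]
        intro c hc
        exact (hCcent c hc x hx).symm
      · intro c hc
        rw [Subgroup.mem_centralizer_iff]
        intro c' hc'
        exact hUc c' (hCU hc') c (hCU hc)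
    have hEcent : E ≤ Subgroup.centralizer (E : Set G) := by
      have h8 : B' ⊔ C ≤ Subgroup.centralizer (E : Set G) := sup_le hB'cent hCcentE
      rwa [← hE] at h8
    have hEc : ∀ x ∈ E, ∀ z ∈ E, x * z = z * x := by
      intro x hx z hz
      exact (Subgroup.mem_centralizer_iff.1 (hEcent hx) z hz).symm
    have hE2 : ∀ x ∈ E, x * x = 1 := by
      have hEcl : E = Subgroup.closure ((B' : Set G) ∪ (C : Set G)) := by
        rw [Subgroup.closure_union, Subgroup.closure_eq, Subgroup.closure_eq, hE]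
      intro x hx
      have hx' : x ∈ Subgroup.closure ((B' : Set G) ∪ (C : Set G)) := hEcl ▸ hx
      have h9 : x ∈ E ∧ x * x = 1 := by
        refine Subgroup.closure_induction (p := fun x _ => x ∈ E ∧ x * x = 1) ?_ ?_ ?_ ?_ hx'
        · intro z hz
          rcases hz with hz | hz
          · exact ⟨hB'E hz, hA2 z (hB'A hz)⟩
          · exact ⟨hCE hz, hU2 z (hCU hz)⟩
        · exact ⟨E.one_mem, by simp⟩
        · intro a c _ _ ha hc
          refine ⟨E.mul_mem ha.1 hc.1, ?_⟩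
          calc a * c * (a * c) = a * (c * a) * c := by group
            _ = a * (a * c) * c := by rw [hEc c hc.1 a ha.1]
            _ = (a * a) * (c * c) := by group
            _ = 1 := by rw [ha.2, hc.2, one_mul]
        · intro a _ ha
          refine ⟨E.inv_mem ha.1, ?_⟩
          rw [← mul_inv_rev, ha.2, inv_one]
      exact h9.2
    have h5 : Nat.card ↥E ≤ Nat.card ↥A := hAmax E hET hEc hE2
    have h6 : Nat.card ↥B' * Nat.card ↥C ≤ Nat.card ↥E * Nat.card ↥(B' ⊓ C : Subgroup G) :=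
      ftr_card B' C E hB'E hCE
    have h7 : Nat.card ↥(B' ⊓ C : Subgroup G) ≤ Nat.card {u : ↥U // ∀ a : ↥A, ρ a u = u} := by
      refine Nat.card_le_card_of_injective (fun x => ⟨⟨(x : G), hCU x.2.2⟩, ?_⟩) ?_
      · intro a
        refine Subtype.ext ?_
        rw [hρa]
        show (a : G) * (x : G) * (a : G)⁻¹ = (x : G)
        have h10 := hAc a a.2 x (hB'A x.2.1)
        rw [h10, mul_inv_cancel_right]
      · intro x x' hxx'
        have h11 : (x : G) = (x' : G) :=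
          congrArg (fun z : {u : ↥U // ∀ a : ↥A, ρ a u = u} => ((z.1 : ↥U) : G)) hxx'
        exact Subtype.ext h11
    calc Nat.card ↥B * Nat.card {u : ↥U // ∀ a ∈ B, ρ a u = u}
        ≤ Nat.card ↥B' * Nat.card ↥C := by rw [hcardB]; exact Nat.mul_le_mul_left _ h1
      _ ≤ Nat.card ↥E * Nat.card ↥(B' ⊓ C : Subgroup G) := h6
      _ ≤ Nat.card ↥A * Nat.card {u : ↥U // ∀ a : ↥A, ρ a u = u} := Nat.mul_le_mul h5 h7
  have key := @h ↥U (ftrComm U hUc) inferInstance ↥A inferInstance inferInstance ρ κ ⟨b, hbA⟩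
    (W₁.subgroupOf U)
    (fun u => Subtype.ext (hU2 u u.2))
    (fun a a' => Subtype.ext (hAc a a.2 a' a'.2))
    (fun a => Subtype.ext (hA2 a a.2))
    hκ3 hbκ haκ hoff hW4' hκW hκfix hρW ⟨u, hu⟩
  rw [Subgroup.mem_subgroupOf] at key
  have h12 : ((κ ⟨u, hu⟩ * (⟨u, hu⟩ : ↥U)⁻¹ : ↥U) : G) = y * u * y⁻¹ * u⁻¹ := by
    rw [Subgroup.coe_mul, hκa]
    rfl
  rw [← h12]
  exact key

end Cfsg.Agent.Lib.Helper90.JE
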