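import Cfsg.Agent.Lib.Helper47.OmcDefs

/-!
# Piece CONJT of the OMC project (helper47, S2683-S2685)

The count of fixed vectors whose value under the quadratic form lies in the Artin-Schreier
image is invariant under conjugation by an isometry.
-/

set_option autoImplicit false

namespace Cfsg.Agent.Lib.Helper90.Omc

open Cfsg.Agent.Lib.Helper47 Matrix

section Pieces

variable {F : Type*} [Field F]

-- PIECE CONJT
theorem card_fix_wp_conj (m : ℕ) (M M' P : Matrix (Fin m ⊕ Fin m) (Fin m ⊕ Fin m) F)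
    (hP : ∀ v, Cfsg.quadFormPlus m F (P *ᵥ v) = Cfsg.quadFormPlus m F v) (hPu : IsUnit P.det)
    (h : P * M = M' * P) :
    Nat.card {a : Fin m ⊕ Fin m → F // M *ᵥ a = a ∧ IsWP (Cfsg.quadFormPlus m F a)}
      = Nat.card {a : Fin m ⊕ Fin m → F // M' *ᵥ a = a ∧ IsWP (Cfsg.quadFormPlus m F a)} := by
  have hPi : P⁻¹ * P = 1 := Matrix.nonsing_inv_mul P hPu
  have hPi' : P * P⁻¹ = 1 := Matrix.mul_nonsing_inv P hPu
  have h1 : ∀ v : Fin m ⊕ Fin m → F, P⁻¹ *ᵥ (P *ᵥ v) = v := by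
    intro v
    rw [Matrix.mulVec_mulVec, hPi, Matrix.one_mulVec]
  have h2 : ∀ v : Fin m ⊕ Fin m → F, P *ᵥ (P⁻¹ *ᵥ v) = v := by
    intro v
    rw [Matrix.mulVec_mulVec, hPi', Matrix.one_mulVec]
  have hQi : ∀ v, Cfsg.quadFormPlus m F (P⁻¹ *ᵥ v) = Cfsg.quadFormPlus m F v := by
    intro v
    rw [← hP (P⁻¹ *ᵥ v), h2]
  have h' : P⁻¹ * M' = M * P⁻¹ := by
    calc P⁻¹ * M' = P⁻¹ * M' * (P * P⁻¹) := by rw [hPi', Matrix.mul_one]
      _ = P⁻¹ * (M' * P) * P⁻¹ := by simp only [Matrix.mul_assoc]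
      _ = P⁻¹ * (P * M) * P⁻¹ := by rw [h]
      _ = (P⁻¹ * P) * M * P⁻¹ := by simp only [Matrix.mul_assoc]
      _ = M * P⁻¹ := by rw [hPi, Matrix.one_mul]
  refine Nat.card_congr
    { toFun := fun a => ⟨P *ᵥ a.1, ?_, ?_⟩
      invFun := fun a => ⟨P⁻¹ *ᵥ a.1, ?_, ?_⟩
      left_inv := fun a => Subtype.ext (h1 a.1)
      right_inv := fun a => Subtype.ext (h2 a.1) }
  · rw [Matrix.mulVec_mulVec, ← h, ← Matrix.mulVec_mulVec, a.2.1]
  · rw [hP]; exact a.2.2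
  · rw [Matrix.mulVec_mulVec, ← h', ← Matrix.mulVec_mulVec, a.2.1]
  · rw [hQi]; exact a.2.2

end Pieces

end Cfsg.Agent.Lib.Helper90.Omc
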