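import Mathlib

/-!
# S5981 (helper96), piece DIAGJ

A diagonal matrix with entries `± c` with characteristic polynomial `(X - c)^a (X + c)^b`.
-/

set_option autoImplicit false

namespace Cfsg.Agent.Lib.Helper90.Oq

open Polynomial Matrix

theorem exists_diag_charpoly {F : Type*} [Field F] (n a b : ℕ) (hab : a + b = n) (c : F) :
    ∃ j : Fin n → F, (∀ i, j i ^ 2 = c ^ 2) ∧
      (Matrix.diagonal j).charpoly = (X - C c) ^ a * (X - C (-c)) ^ b := by
  subst hab
  refine ⟨Fin.addCases (fun _ => c) (fun _ => -c), ?_, ?_⟩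
  · intro i
    refine Fin.addCases (fun i => ?_) (fun i => ?_) i
    · show (Fin.addCases (fun _ => c) (fun _ => -c) (Fin.castAdd b i) : F) ^ 2 = c ^ 2
      rw [Fin.addCases_left]
    · show (Fin.addCases (fun _ => c) (fun _ => -c) (Fin.natAdd a i) : F) ^ 2 = c ^ 2
      rw [Fin.addCases_right]
      ring
  · rw [Matrix.charpoly_diagonal, Fin.prod_univ_add]
    simp only [Fin.addCases_left, Fin.addCases_right, Finset.prod_const, Finset.card_univ,
      Fintype.card_fin]

end Cfsg.Agent.Lib.Helper90.Oq
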