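import Cfsg.Agent.Lib.Helper22.PTDefs

/-!
# S4705 project PT (helper22), piece INV: involutions have `ζ = -1`
-/

set_option autoImplicit false

namespace Cfsg.Agent.Lib.Helper90.PT

open Cfsg Cfsg.Agent.Lib.Helper22.BFD Cfsg.Agent.Lib.Helper22.PT
open scoped ComplexConjugate

universe u

variable {G : Type u} [Group G] [Fintype G]

/-- PIECE INV -/
theorem inv (p : ℕ) [Fact p.Prime] (z : G) (ζ : G → ℂ) (h : Hyp G p z ζ) (s : ℕ)
    (hs : Sq2 G p s)
    (hE1 : ∀ g, ¬ p ∣ orderOf g → ζ g ^ 2 - ζ (g ^ 2) = ((p : ℂ) - 3) * ζ (g ^ s))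
    (τ : G) (hτ : orderOf τ = 2) : ζ τ = -1 := by
  have hp5 := h.p5
  have hreg : ¬ p ∣ orderOf τ := by
    rw [hτ]
    intro hdvd
    have := Nat.le_of_dvd (by norm_num) hdvd
    omega
  have h1 := hE1 τ hreg
  have hsq : τ ^ 2 = 1 := by
    rw [← hτ]
    exact pow_orderOf_eq_one τ
  have hfix : τ ^ s = τ := by
    apply hs.fix
    intro q hq hdvd
    rw [hτ] at hdvd
    left
    exact (Nat.prime_dvd_prime_iff_eq hq Nat.prime_two).1 hdvd
  rw [hsq, hfix, h.deg] at h1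
  have h2 : (ζ τ + 1) * (ζ τ - ((p : ℂ) - 2)) = 0 := by linear_combination h1
  rcases mul_eq_zero.1 h2 with h3 | h3
  · linear_combination h3
  · exfalso
    have h4 : ζ τ = ζ 1 := by
      rw [h.deg]
      linear_combination h3
    have h5 := h.faith τ h4
    rw [h5, orderOf_one] at hτ
    omega

end Cfsg.Agent.Lib.Helper90.PT
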