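import Mathlib
import Cfsg.Agent.Lib.Helper91.SpU

/-!
# S5171 piece H2a (helper90 for helper91): a block upper triangular element of `Sp_{2m}(K)`
lies in the subgroup generated by `U`, the diagonal `SL`-torus and a one-parameter torus
-/

set_option autoImplicit false

namespace Cfsg.Agent.Lib.Helper90.SpH2a

open Matrix Cfsg.Agent.Lib.Helper91.SpU

theorem tri_mem_closure_sp (m : ℕ) (K : Type*) [Field K] (g : Matrix.symplecticGroup (Fin m) K)
    (h1 : g.1.toBlocks₂₁ = 0) (h2 : ∀ i j : Fin m, j < i → g.1.toBlocks₁₁ i j = 0) (i₀ : Fin m) :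
    g ∈ Subgroup.closure
      ({x : Matrix.symplecticGroup (Fin m) K | InU m K x} ∪
        {x | ∃ s : SpecialLinearGroup (Fin m) K,
          (∀ i j : Fin m, i ≠ j → s.1 i j = 0) ∧ x = slphi m K s} ∪
        {x | ∃ (t : K) (A : GL (Fin m) K), t ≠ 0 ∧
          A.1 = Matrix.diagonal (fun k => if k = i₀ then t else 1) ∧ x = sphi m K A}) := by
  classical
  obtain ⟨A, hA⟩ : ∃ A, A = g.1.toBlocks₁₁ := ⟨_, rfl⟩
  obtain ⟨B, hB⟩ : ∃ B, B = g.1.toBlocks₁₂ := ⟨_, rfl⟩
  obtain ⟨D, hD⟩ : ∃ D, D = g.1.toBlocks₂₂ := ⟨_, rfl⟩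
  have hg : g.1 = fromBlocks A B 0 D := by
    rw [hA, hB, hD, ← h1, Matrix.fromBlocks_toBlocks]
  have hmem : fromBlocks A B 0 D ∈ Matrix.symplecticGroup (Fin m) K := by
    rw [← hg]; exact g.2
  rw [SymplecticGroup.fromBlocks_mem_iff] at hmem
  obtain ⟨-, -, h3⟩ := hmem
  rw [Matrix.transpose_zero, Matrix.zero_mul, sub_zero] at h3
  have hdet : A.det ≠ 0 := by
    intro h0
    have h4 := congrArg Matrix.det h3
    rw [Matrix.det_mul, Matrix.det_transpose, h0, zero_mul, Matrix.det_one] at h4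
    exact zero_ne_one h4
  have htri : A.BlockTriangular id := by
    intro i j hij
    rw [hA]; exact h2 i j hij
  have hdet' : A.det = ∏ i, A i i := Matrix.det_of_isUpperTriangular htri
  obtain ⟨τ, hτdef⟩ : ∃ τ : K, τ = ∏ i, A i i := ⟨_, rfl⟩
  have hτ : τ ≠ 0 := by rw [hτdef, ← hdet']; exact hdet
  have ht : ∀ i, A i i ≠ 0 := by
    intro i
    rw [hτdef] at hτ
    exact (Finset.prod_ne_zero_iff.mp hτ) i (Finset.mem_univ i)
  -- the diagonal part of `A`
  obtain ⟨F, hF1, hF2⟩ : ∃ F : GL (Fin m) K, F.1 = Matrix.diagonal (fun k => A k k) ∧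
      (F⁻¹).1 = Matrix.diagonal (fun k => (A k k)⁻¹) :=
    ⟨⟨Matrix.diagonal (fun k => A k k), Matrix.diagonal (fun k => (A k k)⁻¹), by
        rw [Matrix.diagonal_mul_diagonal, ← Matrix.diagonal_one]
        congr 1; funext k; exact mul_inv_cancel₀ (ht k), by
        rw [Matrix.diagonal_mul_diagonal, ← Matrix.diagonal_one]
        congr 1; funext k; exact inv_mul_cancel₀ (ht k)⟩, rfl, rfl⟩
  -- the `SL` part
  have hd1 : (Matrix.diagonal (fun k => if k = i₀ then A k k * τ⁻¹ else A k k)).det = 1 := by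
    rw [Matrix.det_diagonal]
    have h5 : ∀ k : Fin m, (if k = i₀ then A k k * τ⁻¹ else A k k)
        = A k k * (if k = i₀ then τ⁻¹ else 1) := by
      intro k
      split_ifs <;> simp
    rw [Finset.prod_congr rfl (fun k _ => h5 k), Finset.prod_mul_distrib,
      Finset.prod_ite_eq' Finset.univ i₀ (fun _ => τ⁻¹), if_pos (Finset.mem_univ _), ← hτdef]
    exact mul_inv_cancel₀ hτ
  obtain ⟨d₁, hd1def⟩ : ∃ d₁ : SpecialLinearGroup (Fin m) K,
      d₁.1 = Matrix.diagonal (fun k => if k = i₀ then A k k * τ⁻¹ else A k k) :=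
    ⟨⟨_, hd1⟩, rfl⟩
  -- the one-parameter part
  obtain ⟨A₂, hA2⟩ : ∃ A₂ : GL (Fin m) K,
      A₂.1 = Matrix.diagonal (fun k => if k = i₀ then τ else 1) :=
    ⟨⟨Matrix.diagonal (fun k => if k = i₀ then τ else 1),
      Matrix.diagonal (fun k => if k = i₀ then τ⁻¹ else 1), by
        rw [Matrix.diagonal_mul_diagonal, ← Matrix.diagonal_one]
        congr 1; funext k
        split_ifs
        · exact mul_inv_cancel₀ hτ
        · exact mul_one 1, by
        rw [Matrix.diagonal_mul_diagonal, ← Matrix.diagonal_one]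
        congr 1; funext k
        split_ifs
        · exact inv_mul_cancel₀ hτ
        · exact mul_one 1⟩, rfl⟩
  have hFeq : SpecialLinearGroup.toGL d₁ * A₂ = F := by
    apply Units.ext
    show d₁.1 * A₂.1 = F.1
    rw [hd1def, hA2, hF1, Matrix.diagonal_mul_diagonal]
    congr 1; funext k
    split_ifs
    · rw [mul_assoc, inv_mul_cancel₀ hτ, mul_one]
    · exact mul_one _
  have hprod : slphi m K d₁ * sphi m K A₂ = sphi m K F := by
    rw [slphi_apply, ← map_mul, hFeq]
  have hg' : InU m K ((sphi m K F)⁻¹ * g) := by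
    rw [← map_inv]
    have hcoe : ((sphi m K F⁻¹) * g).1
        = fromBlocks ((F⁻¹).1 * A) ((F⁻¹).1 * B) 0 (((F⁻¹)⁻¹).1ᵀ * D) := by
      show (sphi m K F⁻¹).1 * g.1 = _
      rw [sphi_coe, hg, Matrix.fromBlocks_multiply]
      simp
    constructor
    · rw [hcoe, Matrix.toBlocks_fromBlocks₂₁]
    · rw [hcoe, Matrix.toBlocks_fromBlocks₁₁, hF2]
      constructor
      · intro i j hji
        rw [Matrix.diagonal_mul, htri hji, mul_zero]
      · intro i
        rw [Matrix.diagonal_mul, inv_mul_cancel₀ (ht i)]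
  have hgeq : g = slphi m K d₁ * sphi m K A₂ * ((sphi m K F)⁻¹ * g) := by
    rw [hprod]; group
  rw [hgeq]
  refine mul_mem (mul_mem ?_ ?_) ?_
  · apply Subgroup.subset_closure
    refine Or.inl (Or.inr ⟨d₁, ?_, rfl⟩)
    intro i j hij
    rw [hd1def, Matrix.diagonal_apply_ne _ hij]
  · apply Subgroup.subset_closure
    exact Or.inr ⟨τ, A₂, hτ, hA2, rfl⟩
  · apply Subgroup.subset_closure
    exact Or.inl (Or.inl hg')

end Cfsg.Agent.Lib.Helper90.SpH2a
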