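import Cfsg.Agent.Lib.Helper96.SpKap

/-!
# S5956 piece UN-SPLIT (helper90 for helper96)

A unipotent isometry `u` of an alternating form in characteristic `≠ 2`: every invariant
nondegenerate subspace `Z ≠ 0` contains an invariant nondegenerate piece that is one Jordan block
of even size `k` or two Jordan blocks of odd size `k`.
-/

set_option autoImplicit false
set_option linter.unusedSectionVars false
set_option linter.unusedVariables false

namespace Cfsg.Agent.Lib.Helper90.SpUnSplit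

open Module Cfsg.Agent.Lib.Helper96.Sp Cfsg.Agent.Lib.Helper51.Jordan

section Form

variable {F : Type*} [Field F] {V : Type*} [AddCommGroup V] [Module F V]
  {B : LinearMap.BilinForm F V}

theorem form_i0 (u : Module.End F V) (hu : Isom B u) (x y : V) :
    B ((u - 1) x) y = - B (u x) ((u - 1) y) := by
  have h := hu x y
  simp only [LinearMap.sub_apply, Module.End.one_apply, map_sub]
  rw [h]; abel

theorem form_i1 (u : Module.End F V) (hu : Isom B u) (a : ℕ) : ∀ x y : V,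
    B (((u - 1) ^ a) x) y = (-1) ^ a * B ((u ^ a) x) (((u - 1) ^ a) y) := by
  induction a with
  | zero => intro x y; simp
  | succ a ih =>
    intro x y
    have hc : (u ^ a) ((u - 1) x) = (u - 1) ((u ^ a) x) := by
      have h0 : Commute (u ^ a) (u - 1) :=
        (Commute.pow_left (Commute.refl u) a).sub_right (Commute.one_right (u ^ a))
      exact LinearMap.congr_fun h0.eq x
    have e1 : ((u - 1) ^ (a + 1)) x = ((u - 1) ^ a) ((u - 1) x) := by
      rw [pow_succ, Module.End.mul_apply]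
    have e2 : (u ^ (a + 1)) x = u ((u ^ a) x) := by
      rw [pow_succ', Module.End.mul_apply]
    have e3 : ((u - 1) ^ (a + 1)) y = (u - 1) (((u - 1) ^ a) y) := by
      rw [pow_succ', Module.End.mul_apply]
    rw [e1, e2, e3, ih, hc, form_i0 u hu, pow_succ]
    ring

theorem form_vanish (u : Module.End F V) (hu : Isom B u) (Z : Submodule F V) (k : ℕ)
    (hk : ∀ x ∈ Z, ((u - 1) ^ k) x = 0) (a b : ℕ) (hab : k ≤ a + b) (x : V) {y : V}
    (hy : y ∈ Z) : B (((u - 1) ^ a) x) (((u - 1) ^ b) y) = 0 := by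
  rw [form_i1 u hu a]
  have h1 : ((u - 1) ^ a) (((u - 1) ^ b) y) = 0 := by
    rw [← Module.End.mul_apply, ← pow_add]
    obtain ⟨d, hd⟩ := Nat.exists_eq_add_of_le hab
    rw [hd, add_comm k d, pow_add, Module.End.mul_apply, hk y hy, map_zero]
  rw [h1, map_zero, mul_zero]

theorem form_upow (u : Module.End F V) (hu : Isom B u) (Z : Submodule F V) (k : ℕ)
    (hk1 : 1 ≤ k) (hk : ∀ x ∈ Z, ((u - 1) ^ k) x = 0) {y : V} (hy : y ∈ Z) (a : ℕ) :
    ∀ x : V, B ((u ^ a) x) (((u - 1) ^ (k - 1)) y) = B x (((u - 1) ^ (k - 1)) y) := by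
  induction a with
  | zero => intro x; simp
  | succ a ih =>
    intro x
    have e1 : (u ^ (a + 1)) x = (u ^ a) (u x) := by rw [pow_succ, Module.End.mul_apply]
    have e2 : u x = x + (u - 1) x := by simp
    have e3 : B ((u - 1) x) (((u - 1) ^ (k - 1)) y) = 0 := by
      have h0 := form_vanish u hu Z k hk 1 (k - 1) (by omega) x hy
      rwa [pow_one] at h0
    rw [e1, ih, e2, map_add, LinearMap.add_apply, e3, add_zero]

theorem form_top (u : Module.End F V) (hu : Isom B u) (Z : Submodule F V) (k : ℕ)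
    (hk : ∀ x ∈ Z, ((u - 1) ^ k) x = 0) (a b : ℕ) (hab : a + b + 1 = k) (x : V) {y : V}
    (hy : y ∈ Z) :
    B (((u - 1) ^ a) x) (((u - 1) ^ b) y) = (-1) ^ a * B x (((u - 1) ^ (k - 1)) y) := by
  rw [form_i1 u hu a, ← Module.End.mul_apply ((u - 1) ^ a) ((u - 1) ^ b), ← pow_add]
  have h0 : a + b = k - 1 := by omega
  rw [h0, form_upow u hu Z k (by omega) hk hy a x]

theorem pairing {ι : Type} [Fintype ι] [DecidableEq ι] (u : Module.End F V) (hu : Isom B u)
    (Z : Submodule F V) (k : ℕ) (hk : ∀ x ∈ Z, ((u - 1) ^ k) x = 0)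
    (e : ι → V) (σ : ι → ι) (he : ∀ i, e i ∈ Z)
    (hβ0 : ∀ i i', i ≠ i' → B (e i) (((u - 1) ^ (k - 1)) (e (σ i'))) = 0)
    (hβ1 : ∀ i, B (e i) (((u - 1) ^ (k - 1)) (e (σ i))) ≠ 0)
    (c : ι × Fin k → F) (hc : c ≠ 0) :
    ∃ p : ι × Fin k, B (∑ q, c q • ((u - 1) ^ (q.2 : ℕ)) (e q.1))
      (((u - 1) ^ (p.2 : ℕ)) (e p.1)) ≠ 0 := by
  classical
  have hex : ∃ a : ℕ, ∃ (h : a < k) (i : ι), c (i, ⟨a, h⟩) ≠ 0 := by
    obtain ⟨p, hp⟩ : ∃ p, c p ≠ 0 := by
      by_contra hcon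
      push Not at hcon
      exact hc (funext hcon)
    exact ⟨p.2, p.2.2, p.1, hp⟩
  obtain ⟨a₀, ⟨h₀, i₀, hc₀⟩, hmin'⟩ : ∃ a₀, (∃ (h : a₀ < k) (i : ι), c (i, ⟨a₀, h⟩) ≠ 0) ∧
      ∀ a < a₀, ¬ ∃ (h : a < k) (i : ι), c (i, ⟨a, h⟩) ≠ 0 :=
    ⟨Nat.find hex, Nat.find_spec hex, fun a ha => Nat.find_min hex ha⟩
  have hmin : ∀ (i : ι) (a : Fin k), (a : ℕ) < a₀ → c (i, a) = 0 := by
    intro i a ha
    by_contra hne
    exact hmin' a ha ⟨a.2, i, hne⟩
  refine ⟨(σ i₀, ⟨k - 1 - a₀, by omega⟩), ?_⟩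
  rw [map_sum, LinearMap.sum_apply, Finset.sum_eq_single (i₀, ⟨a₀, h₀⟩)]
  · rw [map_smul, LinearMap.smul_apply, smul_eq_mul]
    show c (i₀, ⟨a₀, h₀⟩) * B (((u - 1) ^ a₀) (e i₀)) (((u - 1) ^ (k - 1 - a₀)) (e (σ i₀))) ≠ 0
    rw [form_top u hu Z k hk a₀ (k - 1 - a₀) (by omega) (e i₀) (he (σ i₀))]
    exact mul_ne_zero hc₀ (mul_ne_zero (pow_ne_zero _ (neg_ne_zero.mpr one_ne_zero)) (hβ1 i₀))
  · rintro ⟨i, a⟩ - hne
    rw [map_smul, LinearMap.smul_apply, smul_eq_mul]
    show c (i, a) * B (((u - 1) ^ (a : ℕ)) (e i)) (((u - 1) ^ (k - 1 - a₀)) (e (σ i₀))) = 0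
    rcases lt_trichotomy (a : ℕ) a₀ with hlt | heq | hgt
    · rw [hmin i a hlt, zero_mul]
    · have hi : i ≠ i₀ := by
        rintro rfl
        apply hne
        exact Prod.ext rfl (Fin.ext heq)
      rw [heq, form_top u hu Z k hk a₀ (k - 1 - a₀) (by omega) (e i) (he (σ i₀)),
        hβ0 i i₀ hi, mul_zero, mul_zero]
    · have hak := a.2
      rw [form_vanish u hu Z k hk a (k - 1 - a₀) (by omega) (e i) (he (σ i₀)), mul_zero]
  · intro h
    exact absurd (Finset.mem_univ _) h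

end Form

section Mset

theorem kapM_replicate (n k j : ℕ) : kapM (Multiset.replicate n k) j = n * min k j := by
  induction n with
  | zero => simp [kapM_zero]
  | succ n ih =>
    rw [Multiset.replicate_succ, kapM_cons, ih]
    ring

theorem eq_replicate (k : ℕ) (hk1 : 1 ≤ k) (μ : Multiset ℕ) : ∀ n : ℕ, (∀ c ∈ μ, 0 < c) →
    (∀ c ∈ μ, c ≤ k) → kapM μ (k - 1) + n ≤ μ.sum → μ.sum ≤ n * k →
    μ = Multiset.replicate n k := by
  induction μ using Multiset.induction_on with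
  | empty =>
    intro n _ _ h1 _
    rw [kapM_zero, Multiset.sum_zero] at h1
    have h0 : n = 0 := by omega
    subst h0
    rfl
  | cons c μ ih =>
    intro n hpos hle h1 h2
    rw [kapM_cons, Multiset.sum_cons] at h1
    rw [Multiset.sum_cons] at h2
    have hc0 := hpos c (Multiset.mem_cons_self c μ)
    have hck := hle c (Multiset.mem_cons_self c μ)
    have hpos' : ∀ c' ∈ μ, 0 < c' := fun c' h => hpos c' (Multiset.mem_cons_of_mem h)
    have hle' : ∀ c' ∈ μ, c' ≤ k := fun c' h => hle c' (Multiset.mem_cons_of_mem h)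
    have hkl := kapM_le μ (k - 1)
    rcases Nat.lt_or_ge c k with hlt | hge
    · exfalso
      rw [min_eq_left (by omega : c ≤ k - 1)] at h1
      have h3 := ih n hpos' hle' (by omega) (by omega)
      rw [h3, Multiset.sum_replicate, smul_eq_mul] at h2
      omega
    · have hceq : c = k := by omega
      subst hceq
      rw [min_eq_right (by omega : c - 1 ≤ c)] at h1
      obtain ⟨n', rfl⟩ : ∃ n', n = n' + 1 := by
        rcases n with _ | n'
        · exfalso
          rw [zero_mul] at h2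
          omega
        · exact ⟨n', rfl⟩
      have h4 : (n' + 1) * c = n' * c + c := by ring
      have h3 := ih n' hpos' hle' (by omega) (by omega)
      rw [h3, Multiset.replicate_succ]

end Mset

section Piece

variable {F : Type*} [Field F] {V : Type*} [AddCommGroup V] [Module F V] [FiniteDimensional F V]
  {B : LinearMap.BilinForm F V}

theorem piece_of_dual {ι : Type} [Fintype ι] [DecidableEq ι]
    (u : Module.End F V) (hu : Isom B u) (hnil : IsNilpotent (u - 1))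
    (Z : Submodule F V) (hZ : Z.map u ≤ Z) (k : ℕ) (hk1 : 1 ≤ k)
    (hk : ∀ x ∈ Z, ((u - 1) ^ k) x = 0) (e : ι → V) (σ : ι → ι) (he : ∀ i, e i ∈ Z)
    (hβ0 : ∀ i i', i ≠ i' → B (e i) (((u - 1) ^ (k - 1)) (e (σ i'))) = 0)
    (hβ1 : ∀ i, B (e i) (((u - 1) ^ (k - 1)) (e (σ i))) ≠ 0) :
    ∃ P : Submodule F V, P ≤ Z ∧ P.map u ≤ P ∧ ND B P ∧
      ∀ j, kapOn (u - 1) P j = Fintype.card ι * min k j := by
  classical
  have hZN : Z.map (u - 1) ≤ Z := by
    rintro _ ⟨x, hx, rfl⟩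
    rw [LinearMap.sub_apply, Module.End.one_apply]
    exact Z.sub_mem (hZ ⟨x, hx, rfl⟩) hx
  obtain ⟨b, hb⟩ : ∃ b : ι × Fin k → V, b = fun p => ((u - 1) ^ (p.2 : ℕ)) (e p.1) :=
    ⟨_, rfl⟩
  have hbv : ∀ (i : ι) (a : Fin k), b (i, a) = ((u - 1) ^ (a : ℕ)) (e i) := by
    intro i a; rw [hb]
  obtain ⟨P, hP⟩ : ∃ P : Submodule F V, P = Submodule.span F (Set.range b) := ⟨_, rfl⟩
  have hbP : ∀ p, b p ∈ P := fun p => by rw [hP]; exact Submodule.subset_span ⟨p, rfl⟩
  have hPZ : P ≤ Z := by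
    rw [hP, Submodule.span_le]
    rintro _ ⟨⟨i, a⟩, rfl⟩
    rw [hbv]
    exact pow_mem_of_map_le (u - 1) Z hZN _ (he i)
  have hPN : P.map (u - 1) ≤ P := by
    rw [hP, Submodule.map_span_le]
    rintro _ ⟨⟨i, a⟩, rfl⟩
    rw [hbv, ← Module.End.mul_apply, ← pow_succ', ← hP]
    by_cases ha : (a : ℕ) + 1 < k
    · have h0 := hbP (i, ⟨(a : ℕ) + 1, ha⟩)
      rwa [hbv] at h0
    · have hak := a.2
      have h0 : (a : ℕ) + 1 = k := by omega
      rw [h0, hk _ (he i)]
      exact P.zero_mem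
  have hPu : P.map u ≤ P := by
    rintro _ ⟨x, hx, rfl⟩
    have h0 : u x = (u - 1) x + x := by simp
    rw [h0]
    exact P.add_mem (hPN ⟨x, hx, rfl⟩) hx
  have hpair : ∀ c : ι × Fin k → F, c ≠ 0 → ∃ p, B (∑ q, c q • b q) (b p) ≠ 0 := by
    intro c hc
    rw [hb]
    exact pairing u hu Z k hk e σ he hβ0 hβ1 c hc
  have hli : LinearIndependent F b := by
    rw [Fintype.linearIndependent_iff]
    intro c hc0
    by_contra hne
    push Not at hne
    have hc : c ≠ 0 := by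
      rintro rfl
      obtain ⟨i, hi⟩ := hne
      exact hi rfl
    obtain ⟨p, hp⟩ := hpair c hc
    rw [hc0, map_zero, LinearMap.zero_apply] at hp
    exact hp rfl
  have hnd : ND B P := by
    intro x hx hx0
    rw [hP] at hx
    obtain ⟨c, rfl⟩ := (Submodule.mem_span_range_iff_exists_fun F).mp hx
    by_contra hne
    have hc : c ≠ 0 := by
      rintro rfl
      apply hne
      simp
    obtain ⟨p, hp⟩ := hpair c hc
    exact hp (hx0 _ (hbP p))
  have hfr : finrank F P = Fintype.card ι * k := by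
    rw [hP, finrank_span_eq_card hli, Fintype.card_prod, Fintype.card_fin]
  obtain ⟨μ, hpos, hsum, hkap⟩ := exists_type_on (u - 1) hnil P hPN
  have hle : ∀ c ∈ μ, c ≤ k := by
    rw [← kapM_eq_sum_iff, ← hkap k, hsum]
    have h1 : P ⊓ LinearMap.ker ((u - 1) ^ k) = P :=
      inf_eq_left.mpr (fun x hx => LinearMap.mem_ker.mpr (hk x (hPZ hx)))
    show finrank F ↥(P ⊓ LinearMap.ker ((u - 1) ^ k)) = finrank F ↥P
    rw [h1]
  have hd : kapM μ (k - 1) + Fintype.card ι ≤ μ.sum := by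
    rw [← hkap (k - 1), hsum]
    show finrank F ↥(P ⊓ LinearMap.ker ((u - 1) ^ (k - 1))) + Fintype.card ι ≤ finrank F ↥P
    have hli0 : LinearIndependent F e := by
      have h0 := hli.comp (fun i => (i, (⟨0, hk1⟩ : Fin k)))
        (fun i i' h => (Prod.ext_iff.mp h).1)
      have h1 : (b ∘ fun i => (i, (⟨0, hk1⟩ : Fin k))) = e := by
        funext i
        rw [Function.comp_apply, hbv]
        simp
      rwa [h1] at h0
    have hli1 : LinearIndependent F (fun i => ((u - 1) ^ (k - 1)) (e i)) := by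
      have h0 := hli.comp (fun i => (i, (⟨k - 1, by omega⟩ : Fin k)))
        (fun i i' h => (Prod.ext_iff.mp h).1)
      have h1 : (b ∘ fun i => (i, (⟨k - 1, by omega⟩ : Fin k)))
          = fun i => ((u - 1) ^ (k - 1)) (e i) := by
        funext i
        rw [Function.comp_apply, hbv]
      rwa [h1] at h0
    have hEfr : finrank F (Submodule.span F (Set.range e)) = Fintype.card ι :=
      finrank_span_eq_card hli0
    have hEP : Submodule.span F (Set.range e) ≤ P := by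
      rw [Submodule.span_le]
      rintro _ ⟨i, rfl⟩
      have h0 := hbP (i, ⟨0, hk1⟩)
      rw [hbv] at h0
      simpa using h0
    have hKE : (P ⊓ LinearMap.ker ((u - 1) ^ (k - 1))) ⊓ Submodule.span F (Set.range e) = ⊥ := by
      rw [eq_bot_iff]
      rintro x ⟨⟨-, hxk⟩, hxE⟩
      obtain ⟨α, rfl⟩ := (Submodule.mem_span_range_iff_exists_fun F).mp hxE
      rw [SetLike.mem_coe, LinearMap.mem_ker, map_sum] at hxk
      have h0 : ∀ i, α i = 0 := by
        apply Fintype.linearIndependent_iff.mp hli1 α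
        rw [← hxk]
        apply Finset.sum_congr rfl
        intro i _
        rw [map_smul]
      rw [Submodule.mem_bot]
      apply Finset.sum_eq_zero
      intro i _
      rw [h0 i, zero_smul]
    have h3 := Submodule.finrank_sup_add_finrank_inf_eq
      (P ⊓ LinearMap.ker ((u - 1) ^ (k - 1))) (Submodule.span F (Set.range e))
    rw [hKE, finrank_bot, add_zero] at h3
    have h4 : finrank F ↥((P ⊓ LinearMap.ker ((u - 1) ^ (k - 1))) ⊔
        Submodule.span F (Set.range e)) ≤ finrank F ↥P :=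
      Submodule.finrank_mono (sup_le inf_le_left hEP)
    omega
  have hμ : μ = Multiset.replicate (Fintype.card ι) k :=
    eq_replicate k hk1 μ (Fintype.card ι) hpos hle hd (by rw [hsum, hfr])
  refine ⟨P, hPZ, hPu, hnd, fun j => ?_⟩
  rw [hkap j, hμ, kapM_replicate]

theorem exists_piece {F : Type*} [Field F] {V : Type*} [AddCommGroup V] [Module F V]
    [FiniteDimensional F V] {B : LinearMap.BilinForm F V} (hA : B.IsAlt) (hN : ND B ⊤)
    (h2 : (2 : F) ≠ 0) (u : Module.End F V) (hu : Isom B u) (hnil : IsNilpotent (u - 1))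
    (Z : Submodule F V) (hZ : Z.map u ≤ Z) (hZnd : ND B Z) (hZ0 : Z ≠ ⊥) :
    ∃ (k : ℕ) (P : Submodule F V), P ≤ Z ∧ P.map u ≤ P ∧ ND B P ∧ 1 ≤ k ∧
      ((Even k ∧ ∀ j, kapOn (u - 1) P j = min k j) ∨
       (Odd k ∧ ∀ j, kapOn (u - 1) P j = 2 * min k j)) := by
  classical
  have hex : ∃ k : ℕ, ∀ x ∈ Z, ((u - 1) ^ k) x = 0 := by
    obtain ⟨n, hn⟩ := hnil
    exact ⟨n, fun x _ => by rw [hn, LinearMap.zero_apply]⟩
  obtain ⟨k, hk, hkmin⟩ : ∃ k, (∀ x ∈ Z, ((u - 1) ^ k) x = 0) ∧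
      ∀ k' < k, ¬ ∀ x ∈ Z, ((u - 1) ^ k') x = 0 :=
    ⟨Nat.find hex, Nat.find_spec hex, fun k' hk' => Nat.find_min hex hk'⟩
  have hk1 : 1 ≤ k := by
    by_contra h0
    have h1 : k = 0 := by omega
    subst h1
    apply hZ0
    rw [eq_bot_iff]
    intro x hx
    have h3 := hk x hx
    rw [pow_zero, Module.End.one_apply] at h3
    rw [h3]
    exact Submodule.zero_mem _
  obtain ⟨y₀, hy₀, hy₀ne⟩ : ∃ y ∈ Z, ((u - 1) ^ (k - 1)) y ≠ 0 := by
    have h0 := hkmin (k - 1) (by omega)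
    push Not at h0
    exact h0
  have hZN : Z.map (u - 1) ≤ Z := by
    rintro _ ⟨x, hx, rfl⟩
    rw [LinearMap.sub_apply, Module.End.one_apply]
    exact Z.sub_mem (hZ ⟨x, hx, rfl⟩) hx
  have hmem : ((u - 1) ^ (k - 1)) y₀ ∈ Z := pow_mem_of_map_le (u - 1) Z hZN _ hy₀
  obtain ⟨x₀, hx₀, hx₀ne⟩ : ∃ x ∈ Z, B x (((u - 1) ^ (k - 1)) y₀) ≠ 0 := by
    by_contra hcon
    push Not at hcon
    apply hy₀ne
    apply hZnd _ hmem
    intro v hv
    rw [alt_swap hA, hcon v hv, neg_zero]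
  have hsym : ∀ x, ∀ y ∈ Z, B y (((u - 1) ^ (k - 1)) x)
      = (-1) ^ k * B x (((u - 1) ^ (k - 1)) y) := by
    intro x y hy
    have h1 := form_top u hu Z k hk (k - 1) 0 (by omega) x hy
    rw [pow_zero, Module.End.one_apply] at h1
    rw [alt_swap hA, h1]
    have h3 : (-1 : F) ^ k = (-1) ^ (k - 1) * (-1) := by
      rw [← pow_succ]
      congr 1
      omega
    rw [h3]
    ring
  rcases Nat.even_or_odd k with hev | hodd
  · have hs : ∀ x, ∀ y ∈ Z, B y (((u - 1) ^ (k - 1)) x) = B x (((u - 1) ^ (k - 1)) y) := by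
      intro x y hy
      rw [hsym x y hy, hev.neg_one_pow, one_mul]
    obtain ⟨v, hv, hvne⟩ : ∃ v ∈ Z, B v (((u - 1) ^ (k - 1)) v) ≠ 0 := by
      by_cases h1 : B x₀ (((u - 1) ^ (k - 1)) x₀) ≠ 0
      · exact ⟨x₀, hx₀, h1⟩
      by_cases h3 : B y₀ (((u - 1) ^ (k - 1)) y₀) ≠ 0
      · exact ⟨y₀, hy₀, h3⟩
      push Not at h1 h3
      refine ⟨x₀ + y₀, Z.add_mem hx₀ hy₀, ?_⟩
      have h4 : B (x₀ + y₀) (((u - 1) ^ (k - 1)) (x₀ + y₀))
          = 2 * B x₀ (((u - 1) ^ (k - 1)) y₀) := by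
        simp only [map_add, LinearMap.add_apply]
        rw [h1, h3, hs x₀ y₀ hy₀]
        ring
      rw [h4]
      exact mul_ne_zero h2 hx₀ne
    obtain ⟨P, h1, h3, h4, h5⟩ := piece_of_dual (ι := Unit) u hu hnil Z hZ k hk1 hk
      (fun _ => v) id (fun _ => hv) (fun i i' h => absurd (Subsingleton.elim i i') h)
      (fun _ => hvne)
    exact ⟨k, P, h1, h3, h4, hk1, Or.inl ⟨hev, fun j => by
      rw [h5 j, Fintype.card_unit, one_mul]⟩⟩
  · have hs : ∀ x, ∀ y ∈ Z, B y (((u - 1) ^ (k - 1)) x) = - B x (((u - 1) ^ (k - 1)) y) := by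
      intro x y hy
      rw [hsym x y hy, hodd.neg_one_pow]
      ring
    have hxx : ∀ x ∈ Z, B x (((u - 1) ^ (k - 1)) x) = 0 := by
      intro x hx
      have h0 := hs x x hx
      have h2t : (2 : F) * B x (((u - 1) ^ (k - 1)) x) = 0 := by linear_combination h0
      exact (mul_eq_zero.mp h2t).resolve_left h2
    obtain ⟨P, h1, h3, h4, h5⟩ := piece_of_dual (ι := Bool) u hu hnil Z hZ k hk1 hk
      (fun b => cond b x₀ y₀) (fun b => !b)
      (fun i => by cases i <;> assumption)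
      (fun i i' h => by
        cases i <;> cases i'
        · exact absurd rfl h
        · exact hxx y₀ hy₀
        · exact hxx x₀ hx₀
        · exact absurd rfl h)
      (fun i => by
        cases i
        · show B y₀ (((u - 1) ^ (k - 1)) x₀) ≠ 0
          rw [hs x₀ y₀ hy₀]
          exact neg_ne_zero.mpr hx₀ne
        · exact hx₀ne)
    exact ⟨k, P, h1, h3, h4, hk1, Or.inr ⟨hodd, fun j => by
      rw [h5 j, Fintype.card_bool]⟩⟩

end Piece

end Cfsg.Agent.Lib.Helper90.SpUnSplit
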