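import Cfsg.Agent.Lib.Helper22.TGDefs
import Cfsg.Agent.Lib.Helper81.BrConj
import Cfsg.Agent.Lib.Helper81.BrPairs
import Cfsg.Agent.Lib.Helper22.BrCorrA
import Cfsg.Prelude.Def_Blocks

/-!
# TGC piece STAB (helper90 for helper33): the stabilizer of the pair `(P, b)` is `T`
-/

set_option autoImplicit false
set_option linter.unusedSectionVars false
set_option linter.unusedVariables false

namespace Cfsg.Agent.Lib.Helper90.TGC

open Cfsg Cfsg.Agent.Lib.Helper22.TG Cfsg.Agent.Lib.Helper81
open scoped ComplexConjugate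

variable {G : Type*} [Group G] [Fintype G] (p : ℕ) [Fact p.Prime] (M : Ideal AlgInt)

/-- PIECE TGC-STAB : the stabilizer of the pair `(P, b)` is `T`. -/
theorem stab_iff (hM : IsPModular p M) (P : Sylow p G) (hP : Nat.card P = p)
    (b : Set (IrrCharacter (Subgroup.centralizer ((P : Subgroup G) : Set G))))
    (hb : IsPBlock M b)
    (θ : IrrCharacter (Subgroup.centralizer ((P : Subgroup G) : Set G))) (hθ : θ ∈ b)
    (hθP : ∀ x : Subgroup.centralizer ((P : Subgroup G) : Set G), (x : G) ∈ (P : Subgroup G) →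
      (θ : Subgroup.centralizer ((P : Subgroup G) : Set G) → ℂ) x =
        (θ : Subgroup.centralizer ((P : Subgroup G) : Set G) → ℂ) 1)
    (huniq : ∀ θ' ∈ b, (∀ x : Subgroup.centralizer ((P : Subgroup G) : Set G),
      (x : G) ∈ (P : Subgroup G) →
      (θ' : Subgroup.centralizer ((P : Subgroup G) : Set G) → ℂ) x =
        (θ' : Subgroup.centralizer ((P : Subgroup G) : Set G) → ℂ) 1) → θ' = θ)
    (T : Subgroup G)
    (hT : ∀ g : G, g ∈ T ↔ (g ∈ Subgroup.normalizer ((P : Subgroup G) : Set G) ∧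
      ∀ c c' : Subgroup.centralizer ((P : Subgroup G) : Set G), (c' : G) = g * c * g⁻¹ →
        (θ : Subgroup.centralizer ((P : Subgroup G) : Set G) → ℂ) c' =
          (θ : Subgroup.centralizer ((P : Subgroup G) : Set G) → ℂ) c))
    (g : G) :
    conjPair g (⟨(P : Subgroup G), b⟩ : BrauerPairIdx G) = ⟨(P : Subgroup G), b⟩ ↔ g ∈ T := by
  rw [conjPair_eq_self_iff (P : Subgroup G) b g, hT g]
  constructor
  · rintro ⟨hgN, hgC, hst⟩
    refine ⟨hgN, ?_⟩
    obtain ⟨χ', hχ', hconj⟩ := hst θ hθ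
    have hχ'θ : χ' = θ := by
      apply huniq χ' hχ'
      intro x hx
      -- k := g⁻¹ x g
      have hginvC : g⁻¹ ∈ Subgroup.normalizer
          ((Subgroup.centralizer ((P : Subgroup G) : Set G) : Subgroup G) : Set G) :=
        inv_mem hgC
      have hginvN : g⁻¹ ∈ Subgroup.normalizer ((P : Subgroup G) : Set G) := inv_mem hgN
      have hkC : g⁻¹ * (x : G) * g⁻¹⁻¹ ∈ Subgroup.centralizer ((P : Subgroup G) : Set G) :=
        (Subgroup.mem_normalizer_iff.mp hginvC (x : G)).mp x.2
      have hkP : g⁻¹ * (x : G) * g⁻¹⁻¹ ∈ (P : Subgroup G) :=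
        (Subgroup.mem_normalizer_iff.mp hginvN (x : G)).mp hx
      have h1 := hconj ⟨g⁻¹ * (x : G) * g⁻¹⁻¹, hkC⟩ x (by
        show (x : G) = g * (g⁻¹ * (x : G) * g⁻¹⁻¹) * g⁻¹
        group)
      have h2 := hconj 1 1 (by
        show ((1 : Subgroup.centralizer ((P : Subgroup G) : Set G)) : G)
          = g * ((1 : Subgroup.centralizer ((P : Subgroup G) : Set G)) : G) * g⁻¹
        rw [Subgroup.coe_one]
        group)
      rw [h1, h2]
      exact hθP _ hkP
    intro c c' hcc'
    have h3 := hconj c c' hcc'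
    rw [hχ'θ] at h3
    exact h3
  · rintro ⟨hgN, hinv⟩
    refine ⟨hgN, ?_⟩
    rw [stabilizesBlock_iff]
    have hgC := normalizer_le_normalizer_centralizer (P : Subgroup G) hgN
    refine ⟨hgC, ?_⟩
    have hblk : IsPBlock M (conjSet (Subgroup.centralizer ((P : Subgroup G) : Set G)) g hgC b) :=
      isPBlock_conjSet _ g hgC hb
    have hθmem : θ ∈ conjSet (Subgroup.centralizer ((P : Subgroup G) : Set G)) g hgC b := by
      refine ⟨θ, hθ, ?_⟩
      apply Subtype.ext
      funext k'
      rw [irrMap_apply]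
      symm
      apply hinv
      show (k' : G) = g * (((normConj (Subgroup.centralizer ((P : Subgroup G) : Set G)) g
        hgC).symm k' : Subgroup.centralizer ((P : Subgroup G) : Set G)) : G) * g⁻¹
      show (k' : G) = g * (g⁻¹ * (k' : G) * g) * g⁻¹
      group
    have heq := Cfsg.Agent.Lib.Helper22.block_eq_of_mem_of_mem hM hblk hb θ hθmem hθ
    rw [heq]

end Cfsg.Agent.Lib.Helper90.TGC
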