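import Mathlib
import Cfsg.Agent.Lib.Helper98.U84Defs

/-!
S5984 piece U84-NOMU: no element of norm one has `n`-th power `-1` when the 2-part of `q + 1`
divides `n`.
-/

set_option autoImplicit false

namespace Cfsg.Agent.Lib.Helper98.U84

open Matrix Polynomial

/-! ### U84-NOMU -/
theorem no_norm_one_pow_eq_neg_one {F : Type*} [Field F] [Fintype F] {q n : ℕ}
    (hF : Fintype.card F = q ^ 2) (h2 : (2 : F) ≠ 0)
    (hv : padicValNat 2 (q + 1) ≤ padicValNat 2 n) (μ : F) (hμ : μ ^ (q + 1) = 1) :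
    μ ^ n ≠ -1 := by
  intro hn
  have hq1 : q + 1 ≠ 0 := Nat.succ_ne_zero q
  obtain ⟨c, hc⟩ : 2 ^ padicValNat 2 (q + 1) ∣ n :=
    (pow_dvd_pow 2 hv).trans pow_padicValNat_dvd
  have hkodd : Odd (ordCompl[2] (q + 1)) :=
    (Nat.coprime_ordCompl Nat.prime_two hq1).odd_of_left
  have hprod : ordProj[2] (q + 1) * ordCompl[2] (q + 1) = q + 1 :=
    Nat.ordProj_mul_ordCompl_eq_self (q + 1) 2
  obtain ⟨k, hk⟩ : ∃ k, k = ordCompl[2] (q + 1) := ⟨_, rfl⟩
  rw [← hk] at hkodd hprod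
  rw [Nat.factorization_def _ Nat.prime_two] at hprod
  have e : n * k = (q + 1) * c := by
    have e1 : (q + 1) * c = 2 ^ padicValNat 2 (q + 1) * k * c := by rw [hprod]
    rw [e1]
    nth_rewrite 1 [hc]
    ring
  have h1 : μ ^ (n * k) = 1 := by rw [e, pow_mul, hμ, one_pow]
  rw [pow_mul, hn, hkodd.neg_one_pow] at h1
  apply h2
  have h3 : (2 : F) = 1 + 1 := by norm_num
  rw [h3]
  nth_rewrite 1 [← h1]
  exact neg_add_cancel 1

end Cfsg.Agent.Lib.Helper98.U84
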